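/-
Levi's theorem on 2-Engel groups, fixed-point-free automorphisms of order 3, homocyclic 2-groups.
-/
import Cfsg.Agent.Lib.G.Critical

set_option autoImplicit false
set_option linter.unusedSectionVars false
set_option linter.style.haveILetI false
set_option linter.unusedVariables false

namespace CA.Alp

open Cfsg Subgroup CA
open scoped commutatorElement

section levi
variable {T : Type*} [Group T]

theorem ring_anti {R : Type*} [Ring R] {Y Z : R} (hY : Y * Y = 0) (hZ : Z * Z = 0)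
    (h : (Y + Z + Y * Z) * (Y + Z + Y * Z) = 0) : Y * Z = -(Z * Y) := by
  have a1 : ∀ x, Y * (Y * x) = 0 := fun x => by rw [← mul_assoc, hY, zero_mul]
  have a2 : ∀ x, Z * (Z * x) = 0 := fun x => by rw [← mul_assoc, hZ, zero_mul]
  have h1 := congrArg (Y * ·) h
  simp only [mul_add, add_mul, mul_assoc, a1, a2, hY, hZ, mul_zero, add_zero, zero_add] at h h1
  have h2 : Y * Z + Z * Y + Z * (Y * Z) = 0 := by
    rw [← sub_zero (0 : R)]; nth_rewrite 1 [← h]; rw [← h1]; abel
  have h3 := congrArg (Z * ·) h2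
  simp only [mul_add, a2, mul_zero, add_zero] at h3
  rw [h3, add_zero] at h2
  exact eq_neg_of_add_eq_zero_left h2

theorem ring_comm {R : Type*} [Ring R] {Y Z : R} (hY : Y * Y = 0) (hZ : Z * Z = 0) (h : Y * Z = -(Z * Y)) :
    (1 + Y) * (1 + Z) * (1 - Y) * (1 - Z) = 1 + (Y * Z + Y * Z) := by
  have h' : Z * Y = -(Y * Z) := by rw [h, neg_neg]
  have a1 : ∀ x, Y * (Y * x) = 0 := fun x => by rw [← mul_assoc, hY, zero_mul]
  have a2 : ∀ x, Z * (Y * x) = -(Y * (Z * x)) := fun x => by rw [← mul_assoc, h', neg_mul, mul_assoc]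
  simp only [mul_add, add_mul, mul_sub, sub_mul, mul_assoc, a1, a2, h', hY, hZ, mul_zero, add_zero,
    one_mul, mul_one, mul_neg, neg_zero, neg_mul]
  abel

theorem ring_levi {R : Type*} [Ring R] (act : T → R) (hmul : ∀ g h, act (g * h) = act g * act h)
    (hone : act 1 = 1) (hsq : ∀ g, (act g - 1) * (act g - 1) = 0) (y z : T) :
    (act y - 1) * (act z - 1) = -((act z - 1) * (act y - 1)) ∧
      act ⁅y, z⁆ - 1 = (act y - 1) * (act z - 1) + (act y - 1) * (act z - 1) := by
  have hinv : ∀ g, act g⁻¹ = 1 - (act g - 1) := fun g => by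
    have h1 : (1 + (act g - 1)) * (1 - (act g - 1)) = 1 := by
      rw [add_mul, one_mul, mul_sub, hsq, mul_one]; abel
    rw [add_sub_cancel] at h1
    calc act g⁻¹ = act g⁻¹ * (act g * (1 - (act g - 1))) := by rw [h1, mul_one]
      _ = _ := by rw [← mul_assoc, ← hmul, inv_mul_cancel, hone, one_mul]
  have h1 : (act y - 1) * (act z - 1) = -((act z - 1) * (act y - 1)) := ring_anti (hsq y) (hsq z) (by
    have := hsq (y * z)
    rw [hmul] at this
    have e : act y - 1 + (act z - 1) + (act y - 1) * (act z - 1) = act y * act z - 1 := by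
      simp only [mul_sub, sub_mul, mul_one, one_mul]; abel
    rwa [e])
  have h2 := ring_comm (hsq y) (hsq z) h1
  rw [add_sub_cancel, add_sub_cancel, ← hinv, ← hinv, ← hmul, ← hmul, ← hmul, ← sub_eq_iff_eq_add'] at h2
  exact ⟨h1, h2⟩

/-- Levi: in a 2-Engel group, commutators of weight three have order dividing 3. -/
theorem levi (E : ∀ x t : T, Commute x (t * x * t⁻¹)) (x y z : T) : ⁅y, ⁅z, x⁆⁆ ^ 3 = 1 := by
  have I : ∀ y a : T, ⁅y, a⁻¹⁆ = ⁅y, a⁆⁻¹ := fun y a => by
    have := (E a⁻¹ y).inv_left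
    rw [commutatorElement_inv, commutatorElement_def, commutatorElement_def, ← this.eq]
    group
  have key : ∀ x y z : T, ⁅y, ⁅z, x⁆⁆ = ⁅z, ⁅y, x⁆⁆⁻¹ ∧ ⁅⁅y, z⁆, x⁆ = ⁅y, ⁅z, x⁆⁆ * ⁅y, ⁅z, x⁆⁆ := by
    intro x y z
    let A := normalClosure ({x} : Set T)
    have hA : ∀ a ∈ A, ∀ b ∈ A, a * b = b * a := by
      have h0 : ∀ u ∈ Group.conjugatesOfSet ({x} : Set T), ∃ c, u = c * x * c⁻¹ := fun u hu => by
        obtain ⟨a, ha, h⟩ := Group.mem_conjugatesOfSet_iff.1 hu
        obtain rfl : a = x := ha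
        obtain ⟨c, hc⟩ := isConj_iff.1 h
        exact ⟨c, hc.symm⟩
      refine cents_iff.1 ((closure_le _).2 fun u hu => mem_cent_iff_le_cent1.2 ((closure_le _).2 fun v hv => ?_))
      obtain ⟨c, rfl⟩ := h0 u hu
      obtain ⟨d, rfl⟩ := h0 v hv
      have := (E (c * x * c⁻¹) (d * c⁻¹)).eq
      refine mem_cent1_iff.2 ?_
      convert this.symm using 2 <;> group
    letI : CommGroup A := { (inferInstance : Group A) with mul_comm := fun a b => Subtype.ext (hA _ a.2 _ b.2) }
    let act : T → AddMonoid.End (Additive A) := fun g =>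
      MonoidHom.toAdditive (MulAut.conjNormal g : A ≃* A).toMonoidHom
    have hact : ∀ g (a : Additive A), ((act g a).toMul : T) = g * a.toMul * g⁻¹ := fun g a => rfl
    have ext : ∀ {a b : Additive A}, ((a.toMul : A) : T) = b.toMul → a = b := fun h =>
      Additive.toMul.injective (Subtype.ext h)
    have hmul : ∀ g h, act (g * h) = act g * act h := fun g h => AddMonoidHom.ext fun a => ext (by
      change g * h * _ * (g * h)⁻¹ = g * (h * _ * h⁻¹) * g⁻¹; group)
    have hone : act 1 = 1 := AddMonoidHom.ext fun a => ext (by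
      change 1 * (a.toMul : T) * 1⁻¹ = a.toMul; group)
    have hsub : ∀ g (a : Additive A), (((act g - 1) a).toMul : T) = ⁅g, (a.toMul : T)⁆ := fun g a => by
      change (((act g a).toMul / a.toMul : A) : T) = _
      rw [div_eq_mul_inv, Subgroup.coe_mul, hact]; rfl
    have hsq : ∀ g, (act g - 1) * (act g - 1) = 0 := fun g => AddMonoidHom.ext fun a => ext (by
      change (((act g - 1) ((act g - 1) a)).toMul : T) = 1
      rw [hsub, hsub, commutatorElement_eq_one_iff_commute, commutatorElement_def, mul_assoc, mul_assoc,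
        ← mul_assoc (a.toMul : T)]
      exact (Commute.refl g).mul_right (Commute.inv_left_iff.1 (E g⁻¹ _)))
    obtain ⟨h1, h2⟩ := ring_levi act hmul hone hsq y z
    let x' : Additive A := Additive.ofMul ⟨x, subset_normalClosure rfl⟩
    constructor
    · have := congrArg (fun f : AddMonoid.End (Additive A) => ((f x').toMul : T)) h1
      change (((act y - 1) ((act z - 1) x')).toMul : T) = (((act z - 1) ((act y - 1) x')).toMul : T)⁻¹ at this
      rwa [hsub, hsub, hsub, hsub] at this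
    · have := congrArg (fun f : AddMonoid.End (Additive A) => ((f x').toMul : T)) h2
      change (((act _ - 1) x').toMul : T) = (((act y - 1) ((act z - 1) x')).toMul : T) *
        (((act y - 1) ((act z - 1) x')).toMul : T) at this
      rwa [hsub, hsub, hsub] at this
  have e1 := (key z x y).1
  have e2 := (key x y z).2
  rw [← commutatorElement_inv z x, I, inv_inv] at e1
  rw [← commutatorElement_inv x ⁅y, z⁆, e1] at e2
  rw [pow_succ, pow_two, ← e2, inv_mul_cancel]

end levi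

section fpf
variable {T : Type*} [Group T] [Finite T] {σ : T ≃* T}

theorem fpf_surj (hf : ∀ x, σ x = x → x = 1) (x : T) : ∃ y, x = y⁻¹ * σ y := by
  have : Function.Injective fun y : T => y⁻¹ * σ y := fun a b h => by
    have h1 : σ (b * a⁻¹) = b * a⁻¹ := by
      rw [map_mul, map_inv, ← mul_inv_cancel_left b (σ b)]
      change a⁻¹ * σ a = b⁻¹ * σ b at h
      rw [← h]; group
    exact (mul_inv_eq_one.1 (hf _ h1)).symm
  obtain ⟨y, hy⟩ := Finite.surjective_of_injective this x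
  exact ⟨y, hy.symm⟩

theorem fpf_prod (hf : ∀ x, σ x = x → x = 1) (h3 : ∀ x, σ (σ (σ x)) = x) (x : T) :
    x * σ x * σ (σ x) = 1 := by
  obtain ⟨y, rfl⟩ := fpf_surj hf x
  simp only [map_mul, map_inv, h3]; group

theorem fpf_comm (hf : ∀ x, σ x = x → x = 1) (h3 : ∀ x, σ (σ (σ x)) = x) (x : T) : Commute x (σ x) := by
  have h1 := fpf_prod hf h3 x
  have h2 := fpf_prod hf h3 x⁻¹
  simp only [map_inv] at h2
  have h4 : σ x * x = (σ (σ x))⁻¹ := by
    rw [← mul_inv_rev, mul_inv_eq_one] at h2; rw [← h2, inv_inv]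
  exact (eq_inv_of_mul_eq_one_left h1).trans h4.symm

theorem fpf_engel (hf : ∀ x, σ x = x → x = 1) (h3 : ∀ x, σ (σ (σ x)) = x) (x t : T) :
    Commute x (t * x * t⁻¹) := by
  have h1 : ∀ x t : T, Commute x (t * σ x * t⁻¹) := fun x t => by
    obtain ⟨y, rfl⟩ := fpf_surj hf t
    have := (fpf_comm hf h3 (y * x * y⁻¹)).map (MulAut.conj y⁻¹)
    simp only [MulAut.conj_apply, map_mul σ, map_inv σ] at this
    convert this using 1 <;> group
  have h2 : Commute x (t * σ (σ x) * t⁻¹) := by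
    have := (h1 (σ (σ x)) t⁻¹).map (MulAut.conj t)
    simp only [h3, MulAut.conj_apply] at this
    convert this.symm using 1; group
  have h4 : x = (σ x * σ (σ x))⁻¹ := eq_inv_of_mul_eq_one_left (by rw [← mul_assoc, fpf_prod hf h3])
  have := ((h1 x t).mul_right h2).inv_right
  convert this using 1
  conv_lhs => rw [h4]
  group

/-- A 2-group with a fixed-point-free automorphism of order 3 has class at most two. -/
theorem fpf_class_two (hT : IsPGroup 2 T) (hf : ∀ x, σ x = x → x = 1) (h3 : ∀ x, σ (σ (σ x)) = x)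
    (x y z : T) : Commute ⁅x, y⁆ z := by
  have h1 := levi (fpf_engel hf h3) y z x
  obtain ⟨k, hk⟩ := hT ⁅z, ⁅x, y⁆⁆
  have h2 : orderOf ⁅z, ⁅x, y⁆⁆ ∣ Nat.gcd 3 (2 ^ k) :=
    Nat.dvd_gcd (orderOf_dvd_of_pow_eq_one h1) (orderOf_dvd_of_pow_eq_one hk)
  rw [Nat.Coprime.gcd_eq_one (Nat.Coprime.pow_right k (by norm_num)), Nat.dvd_one, orderOf_eq_one_iff] at h2
  exact (commutatorElement_eq_one_iff_commute.1 h2).symm

end fpf

section cl2
variable {T : Type*} [Group T] (hc : ∀ x y z : T, Commute ⁅x, y⁆ z)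
include hc

theorem cm_mul_left (a b c : T) : ⁅a * b, c⁆ = ⁅a, c⁆ * ⁅b, c⁆ := by
  have : ⁅a * b, c⁆ = a * ⁅b, c⁆ * (c * a⁻¹ * c⁻¹) := by simp only [commutatorElement_def]; group
  rw [this, ← (hc b c a).eq, mul_assoc, (hc b c _).eq]
  congr 1; simp only [commutatorElement_def]; group

theorem cm_mul_right (a b c : T) : ⁅a, b * c⁆ = ⁅a, b⁆ * ⁅a, c⁆ := by
  rw [← commutatorElement_inv, cm_mul_left hc, mul_inv_rev, commutatorElement_inv, commutatorElement_inv,
    (hc a c _).eq]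

theorem cm_inv_left (a c : T) : ⁅a⁻¹, c⁆ = ⁅a, c⁆⁻¹ :=
  eq_inv_of_mul_eq_one_left (by rw [← cm_mul_left hc, inv_mul_cancel, commutatorElement_one_left])

theorem mul_sq (a b : T) : a * b * (a * b) = a * a * (b * b) * ⁅b, a⁆ := by
  have : a * b * (a * b) = a * ⁅b, a⁆ * (a * b * b) := by simp only [commutatorElement_def]; group
  rw [this, mul_assoc, (hc b a _).eq]; group

end cl2

section homocyclic

theorem card_le_four_pow (n : ℕ) : ∀ (A : Type*) [Group A] [Finite A] (hA : ∀ a b : A, a * b = b * a)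
    (h4 : {x : A | x * x = 1}.ncard ≤ 4) (h : ∀ x : A, x ^ 2 ^ n = 1), Nat.card A ≤ 4 ^ n := by
  induction n with
  | zero =>
    intro A _ _ _ _ h
    haveI : Subsingleton A := ⟨fun a b => by rw [← pow_one a, ← pow_one b]; exact (h a).trans (h b).symm⟩
    exact Finite.card_le_one_iff_subsingleton.2 inferInstance
  | succ n ih =>
    intro A _ _ hA h4 h
    let f : A →* A := MonoidHom.mk' (fun x => x * x) fun a b => by
      rw [mul_assoc, mul_assoc, ← mul_assoc b, hA b a, mul_assoc]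
    have h1 := ih f.range (fun a b => Subtype.ext (hA _ _))
      ((Set.ncard_le_ncard_of_injOn (t := {x : A | x * x = 1}) Subtype.val
        (fun (a : f.range) ha => show (a : A) * a = 1 from congrArg Subtype.val (show a * a = 1 from ha)) Subtype.val_injective.injOn).trans h4) (by
        rintro ⟨_, x, rfl⟩
        refine Subtype.ext ?_
        change (x * x) ^ 2 ^ n = 1
        rw [← pow_two, ← pow_mul, ← pow_succ', h])
    have h2 : Nat.card f.ker ≤ 4 := h4
    rw [← Subgroup.card_mul_index f.ker, index_ker, pow_succ']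
    exact Nat.mul_le_mul h2 h1

theorem mem_zpowers_sq {A : Type*} [Group A] {y u : A} {n : ℕ} (hy : orderOf y = 2 ^ (n + 1))
    (hu : u ∈ zpowers y) (h1 : u ≠ 1) (h2 : u * u = 1) : u = y ^ 2 ^ n := by
  obtain ⟨k, rfl⟩ := mem_zpowers_iff.1 hu
  rw [← zpow_add, ← orderOf_dvd_iff_zpow_eq_one, hy] at h2
  obtain ⟨c, hc⟩ := h2
  have hk : k = 2 ^ n * c := by push_cast at hc; rw [pow_succ] at hc; linarith
  rcases Int.even_or_odd' c with ⟨d, rfl | rfl⟩
  · refine absurd ?_ h1
    rw [← orderOf_dvd_iff_zpow_eq_one, hy, hk]; exact ⟨d, by push_cast; ring⟩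
  · rw [← zpow_natCast, zpow_eq_zpow_iff_modEq, hy, hk]
    exact (Int.modEq_iff_dvd.2 ⟨-d, by push_cast; ring⟩)

theorem zpowers_inf_eq_bot {A : Type*} [Group A] [Finite A] {x y : A} {n : ℕ} (hx : orderOf x = 2 ^ (n + 1))
    (hy : orderOf y = 2 ^ (n + 1)) (h : x ^ 2 ^ n ≠ y ^ 2 ^ n) : zpowers x ⊓ zpowers y = ⊥ := by
  by_contra hb
  haveI : Fact (Nat.Prime 2) := ⟨Nat.prime_two⟩
  have hp : IsPGroup 2 ↥(zpowers x ⊓ zpowers y) :=
    (IsPGroup.of_card (n := n + 1) (by rw [Nat.card_zpowers, hx])).to_inf_left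
  obtain ⟨u, hu, h1, h2⟩ := PG.exists_order_p_of_ne_bot hp hb
  rw [pow_two] at h2
  exact h ((mem_zpowers_sq hx hu.1 h1 h2).symm.trans (mem_zpowers_sq hy hu.2 h1 h2))

theorem sup_zpowers_eq_top {A : Type*} [Group A] [Finite A] {x y : A} {n : ℕ} (hx : orderOf x = 2 ^ n)
    (hy : orderOf y = 2 ^ n) (hc : x * y = y * x) (h : zpowers x ⊓ zpowers y = ⊥) (hA : Nat.card A ≤ 4 ^ n) :
    zpowers x ⊔ zpowers y = ⊤ ∧ Nat.card A = 4 ^ n := by
  have h1 := card_sup_of_disjoint (Or.inl (norms_zpowers_of_cent1 (zpowers_le.2 (mem_cent1_iff.2 hc.symm)))) h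
  rw [Nat.card_zpowers, Nat.card_zpowers, hx, hy, ← mul_pow] at h1
  have h2 : zpowers x ⊔ zpowers y = ⊤ := eq_of_le_of_card_le le_top (by rw [h1, card_top]; exact hA)
  exact ⟨h2, by rw [← card_top, ← h2, h1]; rfl⟩

/-- An abelian 2-group of rank at most two with an endomorphism satisfying `1 + σ + σ² = 0` is homocyclic. -/
theorem homocyclic {A : Type*} [Group A] [Finite A] (hA : ∀ a b : A, a * b = b * a) (hp : IsPGroup 2 A)
    (h4 : {x : A | x * x = 1}.ncard ≤ 4) (σ : A →* A) (h : ∀ x, x * σ x * σ (σ x) = 1) :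
    ∃ y n, orderOf y = 2 ^ n ∧ orderOf (σ y) = 2 ^ n ∧ zpowers y ⊓ zpowers (σ y) = ⊥ ∧
      zpowers y ⊔ zpowers (σ y) = ⊤ ∧ Nat.card A = 4 ^ n ∧ ∀ x : A, x ^ 2 ^ n = 1 := by
  haveI : Fact (Nat.Prime 2) := ⟨Nat.prime_two⟩
  obtain ⟨y, -, hy⟩ := Set.exists_max_image (Set.univ : Set A) orderOf (Set.toFinite _) ⟨1, trivial⟩
  obtain ⟨n, hn⟩ := IsPGroup.iff_orderOf.1 hp y
  have he : ∀ x : A, x ^ 2 ^ n = 1 := fun x => by
    obtain ⟨k, hk⟩ := IsPGroup.iff_orderOf.1 hp x
    have := hy x trivial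
    rw [hk, hn] at this
    exact orderOf_dvd_iff_pow_eq_one.1 (hk ▸ pow_dvd_pow 2 ((Nat.pow_le_pow_iff_right one_lt_two).1 this))
  have hi : Function.Injective σ := (injective_iff_map_eq_one σ).2 fun a ha => by
    have := h a; rwa [ha, map_one, mul_one, mul_one] at this
  have h1 : orderOf (σ y) = 2 ^ n := by rw [orderOf_injective σ hi, hn]
  have h2 : zpowers y ⊓ zpowers (σ y) = ⊥ := by
    rcases n with _ | n
    · rw [pow_zero, orderOf_eq_one_iff] at hn; rw [hn, zpowers_one_eq_bot, bot_inf_eq]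
    refine zpowers_inf_eq_bot hn h1 fun e => ?_
    have h3 := h (y ^ 2 ^ n)
    rw [map_pow, ← e, map_pow, ← e, ← pow_add, ← two_mul, ← pow_succ', he, one_mul,
      ← orderOf_dvd_iff_pow_eq_one, hn] at h3
    have := Nat.le_of_dvd (by positivity) h3
    rw [Nat.pow_le_pow_iff_right one_lt_two] at this; omega
  obtain ⟨h3, h5⟩ := sup_zpowers_eq_top hn h1 (hA _ _) h2 (card_le_four_pow n A hA h4 he)
  exact ⟨y, n, hn, h1, h2, h3, h5, he⟩

end homocyclic

end CA.Alp
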