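/-
2-groups with exactly three involutions, central and permuted cyclically by an automorphism of 3-power order.
-/
import Cfsg.Agent.Lib.Alp.Fpf3

set_option autoImplicit false
set_option linter.unusedSectionVars false
set_option linter.style.haveILetI false
set_option linter.unusedVariables false

namespace CA.Alp

open Cfsg Subgroup CA
open scoped commutatorElement

/-- The involutions of `T` are `z, σ z, z σ z`; they are central and permuted cyclically by `σ`. -/
structure K4 {T : Type*} [Group T] (σ : T ≃* T) (z : T) : Prop where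
  ne : z ≠ 1
  sq : z * z = 1
  tri : σ (σ z) = z * σ z
  cen : ∀ x, z * x = x * z
  inv : ∀ x, x * x = 1 → x = 1 ∨ x = z ∨ x = σ z ∨ x = z * σ z

namespace K4
variable {T : Type*} [Group T] {σ : T ≃* T} {z : T} (h : K4 σ z)
include h

theorem sq' : σ z * σ z = 1 := by rw [← map_mul, h.sq, map_one]

theorem cen' (x : T) : σ z * x = x * σ z := by
  obtain ⟨y, rfl⟩ := σ.surjective x; rw [← map_mul, h.cen, map_mul]

theorem ne' : σ z ≠ 1 := fun e => h.ne (σ.injective (by rw [e, map_one]))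

theorem mv : σ z ≠ z := fun e => h.ne (by have := h.tri; rwa [e, e, h.sq] at this)

theorem m1 : σ z * z = z * σ z := (h.cen _).symm
theorem m2 : z * (z * σ z) = σ z := by rw [← mul_assoc, h.sq, one_mul]
theorem m3 : σ z * (z * σ z) = z := by rw [← h.m1, ← mul_assoc, h.sq', one_mul]
theorem m4 : z * σ z * z = σ z := by rw [← h.cen, h.m2]
theorem m5 : z * σ z * σ z = z := by rw [mul_assoc, h.sq', mul_one]
theorem sq'' : z * σ z * (z * σ z) = 1 := by rw [← mul_assoc, h.m4, h.sq']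
theorem ne'' : z * σ z ≠ 1 := fun e => h.mv (by rw [← h.m2, e, mul_one])
theorem mv' : z * σ z ≠ z := fun e => h.ne' (mul_left_cancel (e.trans (mul_one z).symm))
theorem mv'' : z * σ z ≠ σ z := fun e => h.ne (mul_right_cancel (e.trans (one_mul _).symm))
theorem tri' : σ (z * σ z) = z := by rw [map_mul, h.tri, h.m3]

theorem cen_of_sq {u : T} (hu : u * u = 1) (x : T) : u * x = x * u := by
  rcases h.inv u hu with rfl | rfl | rfl | rfl
  · rw [one_mul, mul_one]
  · exact h.cen x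
  · exact h.cen' x
  · rw [mul_assoc, h.cen', ← mul_assoc, h.cen, mul_assoc]

theorem fpf_sq {u : T} (hu : u * u = 1) (e : σ u = u) : u = 1 := by
  rcases h.inv u hu with rfl | rfl | rfl | rfl
  · rfl
  · exact absurd e h.mv
  · exact absurd (h.tri ▸ e) h.mv''
  · exact absurd (h.tri' ▸ e).symm h.mv'

theorem fpf (hp : IsPGroup 2 T) (x : T) (e : σ x = x) : x = 1 := by
  by_contra h1
  obtain ⟨k, hk⟩ := hp x
  obtain ⟨j, h2, h3⟩ := PG.exists_pow_order_p hk h1
  exact h2 (h.fpf_sq (by rwa [pow_two] at h3) (by rw [map_pow, e]))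

theorem next : K4 σ (σ z) :=
  ⟨h.ne', h.sq', by rw [h.tri, h.tri', h.m3], h.cen', fun x hx => by
    rw [h.tri, h.m3]; have := h.inv x hx; tauto⟩

theorem of_ne {u : T} (hu : u * u = 1) (h1 : u ≠ 1) : K4 σ u := by
  rcases h.inv u hu with rfl | rfl | rfl | rfl
  · exact absurd rfl h1
  · exact h
  · exact h.next
  · exact h.tri ▸ h.next.next

theorem cube {u : T} (hu : u * u = 1) : σ (σ (σ u)) = u := by
  by_cases h1 : u = 1
  · simp [h1]
  · rw [(h.of_ne hu h1).tri, (h.of_ne hu h1).tri']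

theorem sq_mul {u v : T} (hu : u * u = 1) (hv : v * v = 1) : u * v * (u * v) = 1 := by
  rw [mul_assoc, ← mul_assoc v, ← h.cen_of_sq hu v, mul_assoc, hv, mul_one, hu]

theorem set_eq : {x : T | x * x = 1} = {1, z, σ z, z * σ z} := by
  ext x
  refine ⟨h.inv x, ?_⟩
  rintro (rfl | rfl | rfl | rfl)
  exacts [one_mul 1, h.sq, h.sq', h.sq'']

theorem ncard : {x : T | x * x = 1}.ncard = 4 := by
  rw [h.set_eq]
  exact Set.ncard_eq_four.2 ⟨_, _, _, _, h.ne.symm, h.ne'.symm, h.ne''.symm, h.mv.symm, h.mv'.symm,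
    h.mv''.symm, rfl⟩

theorem fib : {x : T | x * x = σ z}.ncard = {x : T | x * x = z}.ncard := by
  rw [← Set.ncard_image_of_injective {x : T | x * x = z} σ.injective]
  congr 1; ext x
  refine ⟨fun hx => ⟨σ.symm x, σ.injective ?_, σ.apply_symm_apply x⟩, ?_⟩
  · rw [map_mul, σ.apply_symm_apply]; exact hx
  · rintro ⟨y, hy, rfl⟩; exact (map_mul σ y y).symm.trans (congrArg σ hy)

theorem sum_sq [Fintype T] (h4 : ∀ x : T, x * x * (x * x) = 1) (g : T → ℤ) :
    ∑ x, g (x * x) = 4 * g 1 + {x : T | x * x = z}.ncard * (g z + g (σ z) + g (z * σ z)) := by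
  classical
  have e : ∀ x : T, g (x * x) = (if x * x = 1 then g 1 else 0) + (if x * x = z then g z else 0) +
      (if x * x = σ z then g (σ z) else 0) + (if x * x = z * σ z then g (z * σ z) else 0) := fun x => by
    rcases h.inv _ (h4 x) with e | e | e | e <;> rw [e] <;>
      simp [h.ne, h.ne', h.ne'', h.mv, h.mv', h.mv'', h.ne.symm, h.ne'.symm, h.ne''.symm, h.mv.symm,
        h.mv'.symm, h.mv''.symm]
  have c : ∀ (u : T) (n : ℤ), ∑ x : T, (if x * x = u then n else 0) = {x : T | x * x = u}.ncard * n :=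
    fun u n => by
      rw [← Finset.sum_filter, Finset.sum_const, nsmul_eq_mul, ← Set.ncard_coe_finset]
      congr 3; ext x; simp
  have f2 := h.next.fib
  rw [h.tri] at f2
  simp only [e, Finset.sum_add_distrib, c, h.ncard, f2, h.fib]
  push_cast; ring

omit h in
theorem arith {f N r : ℕ} (h1 : N = 4 + 3 * f) (h2 : ((4 : ℤ) - f) ^ 2 = N * r) (hr : r ∣ N) {a : ℕ}
    (ha : N = 2 ^ a) : f = 0 ∨ (f = 20 ∧ r = 4) := by
  have e : ((N : ℤ) - 16) ^ 2 = 9 * (N * r) := by rw [← h2, h1]; push_cast; ring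
  have d : (N : ℤ) ∣ 256 := ⟨9 * r - N + 32, by linear_combination e⟩
  have d' : 2 ^ a ∣ 2 ^ 8 := by rw [← ha]; exact_mod_cast d
  have := (Nat.pow_dvd_pow_iff_le_right one_lt_two).1 d'
  have hr' := Nat.le_of_dvd (by omega) hr
  interval_cases a <;> subst ha <;> norm_num at e <;>
    first | omega | (subst e; norm_num at hr) | (obtain rfl : r = 25 := by omega
                                                 norm_num at hr)

/-- The count of square roots of an involution in the exponent 4 case. -/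
theorem count [Finite T] (hp : IsPGroup 2 T) (h4 : ∀ x : T, x * x * (x * x) = 1) :
    Nat.card T = 4 + 3 * {x : T | x * x = z}.ncard ∧
      ({x : T | x * x = z}.ncard = 0 ∨ {x : T | x * x = z}.ncard = 4 ∨
        ({x : T | x * x = z}.ncard = 20 ∧ ∀ y : T, (∀ t, y * t = t * y) → y * y = 1)) := by
  classical
  haveI := Fintype.ofFinite T
  haveI : Fact (Nat.Prime 2) := ⟨Nat.prime_two⟩
  set f := {x : T | x * x = z}.ncard with hf
  have c1 : Nat.card T = 4 + 3 * f := by
    have := h.sum_sq h4 fun _ => 1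
    rw [Finset.sum_const, Finset.card_univ, ← Nat.card_eq_fintype_card, ← hf, nsmul_eq_mul] at this
    omega
  refine ⟨c1, ?_⟩
  have hs : ∀ x y : T, x * x * y = y * (x * x) := fun x => h.cen_of_sq (h4 x)
  have hc : ∀ x y t : T, Commute ⁅x, y⁆ t := fun x y t => by
    have e : ⁅x, y⁆ = (x * x) * ((x⁻¹ * y) * (x⁻¹ * y)) * (y⁻¹ * y⁻¹) := by
      rw [commutatorElement_def]; group
    rw [e]
    exact (Commute.mul_left (hs x t) (hs _ t)).mul_left (hs _ t)
  have hc2 : ∀ x y : T, ⁅x, y⁆ * ⁅x, y⁆ = 1 := fun x y => by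
    rw [← cm_mul_left hc, commutatorElement_eq_one_iff_mul_comm, hs]
  let lam : T → ℤ := fun u => if u = 1 ∨ u = z then 1 else -1
  have l0 : lam 1 = 1 := if_pos (Or.inl rfl)
  have l1 : lam z = 1 := if_pos (Or.inr rfl)
  have l2 : lam (σ z) = -1 := if_neg (not_or.2 ⟨h.ne', h.mv⟩)
  have l3 : lam (z * σ z) = -1 := if_neg (not_or.2 ⟨h.ne'', h.mv'⟩)
  have lm : ∀ u v, u * u = 1 → v * v = 1 → lam (u * v) = lam u * lam v := fun u v hu hv => by
    rcases h.inv u hu with rfl | e | rfl | rfl <;> rcases h.inv v hv with rfl | e' | rfl | rfl <;>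
      (try rw [e]) <;> (try rw [e']) <;>
      simp only [one_mul, mul_one, h.sq, h.sq', h.sq'', h.m1, h.m2, h.m3, h.m4, h.m5, l0, l1, l2, l3,
        neg_mul_neg, mul_neg, neg_neg]
  have S : ∑ x, lam (x * x) = 4 - f := by rw [h.sum_sq h4, l0, l1, l2, l3, ← hf]; ring
  let φ : T → T →* ℤ := fun y =>
    { toFun := fun x => lam ⁅y, x⁆
      map_one' := by rw [commutatorElement_one_right, l0]
      map_mul' := fun a b => by rw [cm_mul_right hc, lm _ _ (hc2 _ _) (hc2 _ _)] }
  let R : Subgroup T :=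
    { carrier := {y | ∀ x, lam ⁅y, x⁆ = 1}
      one_mem' := fun x => by rw [commutatorElement_one_left, l0]
      mul_mem' := fun {a b} ha hb x => by rw [cm_mul_left hc, lm _ _ (hc2 _ _) (hc2 _ _), ha, hb, one_mul]
      inv_mem' := fun {a} ha x => by
        rw [cm_inv_left hc, inv_eq_of_mul_eq_one_left (hc2 _ _), ha] }
  have lsq : ∀ a b : T, lam (a * b * (a * b)) = lam (a * a) * lam (b * b) * lam ⁅b, a⁆ := fun a b => by
    rw [mul_sq hc, lm _ _ (h.sq_mul (h4 a) (h4 b)) (hc2 _ _), lm _ _ (h4 a) (h4 b)]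
  let ψ : R →* ℤ :=
    { toFun := fun y => lam (y * y)
      map_one' := by simp [l0]
      map_mul' := fun a b => by rw [Subgroup.coe_mul, lsq, b.2, mul_one] }
  have l11 : ∀ u, lam u * lam u = 1 := fun u => by
    change (if _ then _ else _) * (if _ then _ else _) = (1 : ℤ); split_ifs <;> rfl
  have key : ((4 : ℤ) - f) ^ 2 = Nat.card T * ∑ y : R, ψ y := by
    have e1 : ∀ x : T, ∑ y, lam (y * y) = ∑ y, lam (x * y * (x * y)) := fun x =>
      (Equiv.sum_comp (Equiv.mulLeft x) fun y => lam (y * y)).symm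
    have e2 : ∀ y : T, ∑ x, φ y x = if y ∈ R then (Nat.card T : ℤ) else 0 := fun y => by
      split_ifs with hy
      · rw [Finset.sum_congr rfl fun x _ => show φ y x = 1 from hy x]
        simp
      · exact sum_hom_units_eq_zero _ fun e => hy fun x => DFunLike.congr_fun e x
    calc ((4 : ℤ) - f) ^ 2 = ∑ x : T, lam (x * x) * ∑ y, lam (x * y * (x * y)) := by
          rw [pow_two, ← S, Finset.sum_mul]
          exact Finset.sum_congr rfl fun x _ => by rw [← e1]
      _ = ∑ y : T, lam (y * y) * ∑ x, φ y x := by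
          simp only [Finset.mul_sum]
          rw [Finset.sum_comm]
          refine Finset.sum_congr rfl fun y _ => Finset.sum_congr rfl fun x _ => ?_
          rw [lsq, ← mul_assoc, ← mul_assoc, l11, one_mul]; rfl
      _ = _ := by
          simp only [e2, mul_ite, mul_zero]
          rw [← Finset.sum_filter, Finset.mul_sum, Finset.sum_subtype (p := (· ∈ R)) _ (by simp)]
          exact Finset.sum_congr rfl fun y _ => mul_comm _ _
  by_cases hψ : ψ = 1
  · rw [hψ] at key
    simp only [MonoidHom.one_apply, Finset.sum_const, Finset.card_univ, nsmul_eq_mul, mul_one] at key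
    obtain ⟨a, ha⟩ := IsPGroup.iff_card.1 hp
    rw [← Nat.card_eq_fintype_card] at key
    rcases arith c1 key (card_subgroup_dvd_card R) ha with e | ⟨e, e'⟩
    · exact Or.inl e
    refine Or.inr (Or.inr ⟨e, fun y hy => ?_⟩)
    have h1 : {x : T | x * x = 1} = R := Set.eq_of_subset_of_ncard_le (fun x hx t => by
      rw [commutatorElement_eq_one_iff_mul_comm.2 (h.cen_of_sq hx t), l0]) (by rw [h.ncard]; exact e'.le)
    have h2 : y ∈ (R : Set T) := fun t => by rw [commutatorElement_eq_one_iff_mul_comm.2 (hy t), l0]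
    rwa [← h1] at h2
  · rw [sum_hom_units_eq_zero _ hψ, mul_zero, pow_eq_zero_iff two_ne_zero] at key
    exact Or.inr (Or.inl (by omega))

end K4

/-- Relative form of `K4`. -/
structure RK4 {G : Type*} [Group G] (σ : G ≃* G) (T : Subgroup G) (z : G) : Prop where
  nrm : ∀ x, x ∈ T ↔ σ x ∈ T
  mem : z ∈ T
  ne : z ≠ 1
  sq : z * z = 1
  tri : σ (σ z) = z * σ z
  cen : ∀ x ∈ T, z * x = x * z
  inv : ∀ x ∈ T, x * x = 1 → x = 1 ∨ x = z ∨ x = σ z ∨ x = z * σ z

/-- Restriction of an automorphism to an invariant subgroup. -/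
def res {G : Type*} [Group G] (σ : G ≃* G) (T : Subgroup G) (h : ∀ x, x ∈ T ↔ σ x ∈ T) : T ≃* T :=
  { Equiv.subtypeEquiv σ.toEquiv h with map_mul' := fun a b => Subtype.ext (map_mul σ _ _) }

theorem res_iterate {G : Type*} [Group G] (σ : G ≃* G) (T : Subgroup G) (h : ∀ x, x ∈ T ↔ σ x ∈ T) (n : ℕ)
    (x : T) : ((res σ T h)^[n] x : G) = σ^[n] x := by
  induction n with
  | zero => rfl
  | succ n ih => rw [Function.iterate_succ_apply', Function.iterate_succ_apply', ← ih]; rfl

theorem RK4.k4 {G : Type*} [Group G] {σ : G ≃* G} {T : Subgroup G} {z : G} (h : RK4 σ T z) :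
    K4 (res σ T h.nrm) ⟨z, h.mem⟩ :=
  ⟨fun e => h.ne (congrArg Subtype.val e), Subtype.ext h.sq, Subtype.ext h.tri,
    fun x => Subtype.ext (h.cen x x.2), fun x hx => by
      simp only [Subtype.ext_iff]; exact h.inv x x.2 (congrArg Subtype.val hx)⟩

theorem RK4.mono {G : Type*} [Group G] {σ : G ≃* G} {T Q : Subgroup G} {z : G} (h : RK4 σ T z) (hQ : Q ≤ T)
    (hn : ∀ x, x ∈ Q ↔ σ x ∈ Q) (hz : z ∈ Q) : RK4 σ Q z :=
  ⟨hn, hz, h.ne, h.sq, h.tri, fun x hx => h.cen x (hQ hx), fun x hx => h.inv x (hQ hx)⟩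

theorem K4.sub {T : Type*} [Group T] {σ : T ≃* T} {z : T} (h : K4 σ z) {Q : Subgroup T}
    (hn : ∀ x, x ∈ Q ↔ σ x ∈ Q) (hz : z ∈ Q) : K4 (res σ Q hn) ⟨z, hz⟩ :=
  RK4.k4 ⟨hn, hz, h.ne, h.sq, h.tri, fun x _ => h.cen x, fun x _ => h.inv x⟩

theorem fix_of_fix {T : Type*} [Group T] {β : T ≃* T} {k j : ℕ} {x : T} (hk : β^[3 ^ k] x = x)
    (h1 : β (x⁻¹ * β x) = x⁻¹ * β x) (h2 : (x⁻¹ * β x) ^ 2 ^ j = 1) : β x = x := by
  have e : ∀ n, β^[n] x = x * (x⁻¹ * β x) ^ n := fun n => by
    induction n with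
    | zero => simp
    | succ n ih => rw [Function.iterate_succ_apply', ih, map_mul, map_pow, h1, pow_succ', ← mul_assoc, mul_inv_cancel_left]
  have h3 : (x⁻¹ * β x) ^ 3 ^ k = 1 := mul_left_cancel ((e _).symm.trans (hk.trans (mul_one x).symm))
  have h4 := Nat.dvd_gcd (orderOf_dvd_of_pow_eq_one h2) (orderOf_dvd_of_pow_eq_one h3)
  rw [Nat.Coprime.gcd_eq_one (Nat.Coprime.pow j k (by norm_num)), Nat.dvd_one, orderOf_eq_one_iff,
    inv_mul_eq_one] at h4
  exact h4.symm

theorem iterate_cube {T : Type*} {σ : T → T} {k : ℕ} (hk : ∀ x, σ^[3 ^ k] x = x) (x : T) :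
    (fun x => σ (σ (σ x)))^[3 ^ k] x = x := by
  change (σ^[3])^[3 ^ k] x = x
  rw [← Function.iterate_mul, mul_comm, Function.iterate_mul]
  exact Function.iterate_fixed (hk x) 3

namespace K4
variable {T : Type*} [Group T] [Finite T] {σ : T ≃* T} {z : T} (h : K4 σ z) (hp : IsPGroup 2 T)
include h hp

theorem cube_of_exp4 (h4 : ∀ x : T, x * x * (x * x) = 1) {k : ℕ} (hk : ∀ x, σ^[3 ^ k] x = x) (x : T) :
    σ (σ (σ x)) = x := by
  classical
  haveI : Fact (Nat.Prime 3) := ⟨Nat.prime_three⟩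
  let Q : Subgroup T :=
    { carrier := {x | σ (σ (σ x)) = x}
      one_mem' := by simp
      mul_mem' := fun {a b} ha hb => by
        change σ (σ (σ (a * b))) = a * b; rw [map_mul, map_mul, map_mul, ha, hb]
      inv_mem' := fun {a} ha => by change σ (σ (σ a⁻¹)) = a⁻¹; rw [map_inv, map_inv, map_inv, ha] }
  have hQ := h.sub (Q := Q) (fun x => σ.injective.eq_iff.symm) (h.cube h.sq)
  obtain ⟨c1, c2⟩ := h.count hp h4
  obtain ⟨d1, d2⟩ := hQ.count (hp.to_subgroup Q) fun x => Subtype.ext (h4 x)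
  haveI := Fintype.ofFinite T
  let g : Function.End {x : T // x * x = z} := fun x => ⟨σ (σ (σ x)), by
    rw [← map_mul, ← map_mul, ← map_mul, x.2, h.cube h.sq]⟩
  have hg : ∀ n x, ((g ^ n) x : T) = (fun x => σ (σ (σ x)))^[n] x := fun n x => by
    induction n with
    | zero => rfl
    | succ n ih => rw [pow_succ', Function.iterate_succ_apply', ← ih]; rfl
  have m := Equiv.Perm.card_fixedPoints_modEq (f := g) (p := 3) (n := k)
    (funext fun x => Subtype.ext ((hg _ x).trans (iterate_cube hk x)))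
  have e1 : Fintype.card {x : T // x * x = z} = {x : T | x * x = z}.ncard := by
    rw [← Nat.card_eq_fintype_card]; rfl
  have e2 : Fintype.card (Function.fixedPoints g) = {x : Q | x * x = ⟨z, h.cube h.sq⟩}.ncard := by
    rw [← Nat.card_eq_fintype_card]
    exact Nat.card_congr ⟨fun x => ⟨⟨x.1.1, congrArg Subtype.val x.2⟩, Subtype.ext x.1.2⟩,
      fun x => ⟨⟨x.1.1, congrArg Subtype.val x.2⟩, Subtype.ext x.1.2⟩, fun _ => rfl, fun _ => rfl⟩
  rw [e1, e2, Nat.ModEq] at m
  have : Q = ⊤ := eq_of_le_of_card_le le_top (by rw [card_top]; omega)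
  exact (this ▸ mem_top x : x ∈ Q)

omit h hp in
/-- The elements of order dividing 4 form a subgroup in class two. -/
def om2 (h : K4 σ z) (hc : ∀ x y z : T, Commute ⁅x, y⁆ z) : Subgroup T where
  carrier := {x | x * x * (x * x) = 1}
  one_mem' := by simp
  mul_mem' := fun {a b} ha hb => by
    change a * b * (a * b) * (a * b * (a * b)) = 1
    rw [mul_sq hc a b]
    refine h.sq_mul (h.sq_mul ha hb) ?_
    rw [← cm_mul_left hc, commutatorElement_eq_one_iff_mul_comm, h.cen_of_sq hb]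
  inv_mem' := fun {a} ha => by
    change a⁻¹ * a⁻¹ * (a⁻¹ * a⁻¹) = 1
    rw [← mul_inv_rev, ← mul_inv_rev, ha, inv_one]

omit hp in
theorem om2_nrm (hc : ∀ x y z : T, Commute ⁅x, y⁆ z) (x : T) : x ∈ h.om2 hc ↔ σ x ∈ h.om2 hc := by
  change _ ↔ σ x * σ x * (σ x * σ x) = 1
  rw [← map_mul, ← map_mul, map_eq_one_iff σ σ.injective]; rfl

omit hp in
theorem om2_mem (hc : ∀ x y z : T, Commute ⁅x, y⁆ z) : z ∈ h.om2 hc := by
  change z * z * (z * z) = 1; rw [h.sq, one_mul]

theorem cube_of_sq_central (hs : ∀ x y : T, x * x * y = y * (x * x)) {k : ℕ} (hk : ∀ x, σ^[3 ^ k] x = x)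
    (x : T) : σ (σ (σ x)) = x := by
  have hc : ∀ x y t : T, Commute ⁅x, y⁆ t := fun x y t => by
    have e : ⁅x, y⁆ = (x * x) * ((x⁻¹ * y) * (x⁻¹ * y)) * (y⁻¹ * y⁻¹) := by
      rw [commutatorElement_def]; group
    rw [e]
    exact (Commute.mul_left (hs x t) (hs _ t)).mul_left (hs _ t)
  let β : T ≃* T := σ.trans (σ.trans σ)
  have hβ : ∀ x, β^[3 ^ k] x = x := iterate_cube hk
  have h1 : ∀ j (x : T), (∀ y, x * y = y * x) → x ^ 2 ^ j = 1 → β x = x := fun j => by
    induction j with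
    | zero => intro x _ hx; rw [pow_zero, pow_one] at hx; rw [hx, map_one]
    | succ j ih =>
      intro x hx hj
      have e := ih (x * x) (hs x) (by rw [← pow_two, ← pow_mul, ← pow_succ', hj])
      have e2 : x⁻¹ * β x * (x⁻¹ * β x) = 1 := by
        rw [mul_assoc, ← mul_assoc (β x), ← (Commute.inv_left (hx (β x))).eq, mul_assoc, ← map_mul, e]
        group
      exact fix_of_fix (j := 1) (hβ x) (h.cube e2) (by rw [pow_one, pow_two, e2])
  have h2 : ∀ w ∈ h.om2 hc, β w = w := fun w hw => congrArg Subtype.val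
    ((h.sub (h.om2_nrm hc) (h.om2_mem hc)).cube_of_exp4 (hp.to_subgroup _) (fun x => Subtype.ext x.2)
      (k := k) (fun x => Subtype.ext ((res_iterate _ _ _ _ _).trans (hk x))) ⟨w, hw⟩)
  obtain ⟨j, hj⟩ := hp (x * x)
  have e := h1 j _ (hs x) hj
  have e2 : x⁻¹ * β x ∈ h.om2 hc := by
    change _ * _ = _
    rw [mul_sq hc x⁻¹, ← map_mul, e, ← mul_inv_rev, inv_mul_cancel, one_mul, ← cm_mul_left hc,
      commutatorElement_eq_one_iff_mul_comm, hs]
  exact fix_of_fix (j := 2) (hβ x) (h2 _ e2) (by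
    rw [show 2 ^ 2 = 2 * 2 from rfl, pow_mul, pow_two, pow_two]; exact e2)

section cube
variable (h3 : ∀ x, σ (σ (σ x)) = x)
include h3

theorem prod (x : T) : x * σ x * σ (σ x) = 1 := fpf_prod (h.fpf hp) h3 x
theorem comm (x : T) : Commute x (σ x) := fpf_comm (h.fpf hp) h3 x
theorem cl2 (x y t : T) : Commute ⁅x, y⁆ t := fpf_class_two hp (h.fpf hp) h3 x y t

theorem cm_swap (x y : T) : ⁅x, σ y⁆ = ⁅σ x, y⁆ := by
  have hc := h.cl2 hp h3
  have e : ∀ x, ⁅x, σ x⁆ = 1 := fun x => commutatorElement_eq_one_iff_commute.2 (h.comm hp h3 x)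
  have := e (x * y)
  rw [map_mul, cm_mul_left hc, cm_mul_right hc, cm_mul_right hc, e, e, one_mul, mul_one,
    mul_eq_one_iff_eq_inv, commutatorElement_inv] at this
  exact this

theorem cm_left (x y : T) : ⁅σ x, y⁆ = σ (σ ⁅x, y⁆) := by
  have hc := h.cl2 hp h3
  have e1 : σ ⁅x, y⁆ = (⁅x, y⁆ * ⁅σ x, y⁆)⁻¹ := by
    rw [map_commutatorElement, h.cm_swap hp h3, eq_inv_of_mul_eq_one_right (h.prod hp h3 x), cm_inv_left hc,
      cm_mul_left hc]
  rw [eq_inv_of_mul_eq_one_right (h.prod hp h3 ⁅x, y⁆), e1, mul_inv_rev, mul_inv_rev, mul_inv_rev, inv_inv,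
    inv_inv, (hc x y _).eq]
  group

theorem cm_right (x y : T) : ⁅x, σ y⁆ = σ (σ ⁅x, y⁆) := by rw [h.cm_swap hp h3, h.cm_left hp h3]

/-- The key dichotomy. -/
theorem dichotomy : (∀ a b : T, a * b = b * a) ∨
    (Nat.card T = 64 ∧ (∀ x : T, x * x * (x * x) = 1) ∧ ∀ y : T, (∀ t, y * t = t * y) → y * y = 1) := by
  haveI : Fact (Nat.Prime 2) := ⟨Nat.prime_two⟩
  have hc := h.cl2 hp h3
  obtain ⟨c1, c2⟩ := (h.sub (h.om2_nrm hc) (h.om2_mem hc)).count (hp.to_subgroup _) fun x => Subtype.ext x.2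
  by_cases hQ : Nat.card (h.om2 hc) ≤ 16
  · left
    let Z := center T
    have hZ : ∀ x ∈ Z, σ x ∈ Z := fun x hx => mem_center_iff.2 fun y => by
      obtain ⟨y, rfl⟩ := σ.surjective y
      rw [← map_mul, mem_center_iff.1 hx, map_mul]
    let τ : T ⧸ Z →* T ⧸ Z := QuotientGroup.map Z Z σ.toMonoidHom hZ
    have hA : ∀ a b : T ⧸ Z, a * b = b * a := by
      rintro ⟨a⟩ ⟨b⟩
      refine QuotientGroup.eq.2 (mem_center_iff.2 fun t => ?_)
      have : (a * b)⁻¹ * (b * a) = ⁅b⁻¹, a⁻¹⁆ := by rw [commutatorElement_def]; group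
      rw [this]; exact (hc _ _ t).eq.symm
    let W : Subgroup T :=
      { carrier := {x | x * x ∈ Z}
        one_mem' := by simp
        mul_mem' := fun {a b} ha hb => by
          change a * b * (a * b) ∈ Z
          rw [mul_sq hc]; exact mul_mem (mul_mem ha hb) (mem_center_iff.2 fun t => (hc _ _ t).eq.symm)
        inv_mem' := fun {a} ha => by
          change a⁻¹ * a⁻¹ ∈ Z
          rw [← mul_inv_rev]; exact inv_mem ha }
    let s : Z →* T := MonoidHom.mk' (fun x => x * x) fun a b => by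
      rw [Subgroup.coe_mul, mul_assoc, mul_assoc, ← mul_assoc (b : T), mem_center_iff.1 a.2 b, mul_assoc]
    let f : W →* T := MonoidHom.mk' (fun x => x * x * (x * x)) fun a b => by
      have e : ⁅(b : T), (a : T)⁆ * ⁅(b : T), (a : T)⁆ = 1 := by
        rw [← cm_mul_left hc, commutatorElement_eq_one_iff_mul_comm, mem_center_iff.1 b.2]
      have c1 : Commute ((a : T) * a * (b * b)) ⁅(b : T), (a : T)⁆ := (hc _ _ _).symm
      have c2 : Commute ((a : T) * a) (b * b) := (mem_center_iff.1 a.2 _).symm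
      rw [Subgroup.coe_mul, mul_sq hc (a : T), c1.symm.mul_mul_mul_comm, e, mul_one, c2.symm.mul_mul_mul_comm]
    have k1 : Nat.card f.ker ≤ 16 := le_trans (Nat.card_le_card_of_injective
      (fun x => (⟨x.1.1, x.2⟩ : h.om2 hc)) fun a b e =>
        Subtype.ext (Subtype.ext (congrArg (Subtype.val : h.om2 hc → T) e))) hQ
    have k2 : Nat.card f.range ≤ Nat.card s.range := card_le_of_le' (by
      rintro _ ⟨x, rfl⟩; exact ⟨⟨_, x.2⟩, rfl⟩)
    have k3 : Nat.card s.ker = 4 := by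
      rw [← h.ncard]
      exact Nat.card_congr ⟨fun x => ⟨x.1.1, x.2⟩,
        fun x => ⟨⟨x.1, mem_center_iff.2 fun t => (h.cen_of_sq x.2 t).symm⟩, x.2⟩, fun _ => rfl, fun _ => rfl⟩
    have k4 := Subgroup.card_mul_index f.ker
    have k5 := Subgroup.card_mul_index s.ker
    rw [index_ker] at k4 k5
    have k6 : {x : T ⧸ Z | x * x = 1} = W.map (QuotientGroup.mk' Z) := by
      ext x
      obtain ⟨x, rfl⟩ := QuotientGroup.mk'_surjective Z x
      refine ⟨fun hx => ⟨x, (QuotientGroup.eq_one_iff (N := Z) (x * x)).1 hx, rfl⟩, fun ⟨y, hy, e⟩ => ?_⟩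
      rw [← e]; exact (QuotientGroup.eq_one_iff (N := Z) (y * y)).2 hy
    have k7 : Nat.card Z * Nat.card (W.map (QuotientGroup.mk' Z)) = Nat.card W := by
      rw [← relIndex_ker, QuotientGroup.ker_mk', card_mul_relIndex fun x hx => mul_mem hx hx]
    have k8 : {x : T ⧸ Z | x * x = 1}.ncard ≤ 4 := by
      rw [k6]
      change Nat.card (W.map (QuotientGroup.mk' Z)) ≤ 4
      refine Nat.le_of_mul_le_mul_left ?_ (card_pos' Z)
      rw [k7, ← k4, ← k5, k3]
      calc _ ≤ 16 * Nat.card s.range := Nat.mul_le_mul k1 k2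
        _ = _ := by ring
    obtain ⟨y, n, -, -, -, e, -, -⟩ := homocyclic hA (hp.to_quotient Z) k8 τ (by
      rintro ⟨x⟩; exact congrArg (QuotientGroup.mk' Z) (h.prod hp h3 x))
    obtain ⟨y, rfl⟩ := QuotientGroup.mk'_surjective Z y
    have e2 : Z ⊔ (zpowers y ⊔ zpowers (σ y)) = ⊤ := by
      have := congrArg (comap (QuotientGroup.mk' Z)) e
      change comap _ (_ ⊔ zpowers (QuotientGroup.mk' Z (σ y))) = _ at this
      rwa [← MonoidHom.map_zpowers, ← MonoidHom.map_zpowers, ← Subgroup.map_sup, QuotientGroup.comap_map_mk',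
        comap_top] at this
    have e3 : IsMulCommutative ↥(Z ⊔ (zpowers y ⊔ zpowers (σ y))) :=
      abelian_sup inferInstance (abelian_sup (abelian_zpowers _) (abelian_zpowers _) (by
        rw [cent_zpowers, zpowers_le]; exact mem_cent1_iff.2 (h.comm hp h3 y).eq))
        (center_le_centralizer _)
    rw [e2] at e3
    exact fun a b => abelian_iff'.1 e3 a trivial b trivial
  · right
    obtain ⟨c2, c3⟩ : _ ∧ _ := (c2.resolve_left (by omega)).resolve_left (by omega)
    have h4 : ∀ x : T, x * x * (x * x) = 1 := by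
      by_contra hn
      push Not at hn
      obtain ⟨x, hx⟩ := hn
      obtain ⟨k, hk⟩ := hp (x * x * (x * x))
      obtain ⟨j, h1, h2⟩ := PG.exists_pow_order_p hk hx
      have cx : Commute x x := Commute.refl x
      rw [(Commute.refl _).mul_pow, cx.mul_pow] at h1 h2
      have h5 : (x ^ 2 ^ j) * (x ^ 2 ^ j) ∈ h.om2 hc := (pow_two _).symm.trans h2
      have := c3 ⟨_, h5⟩ fun t => Subtype.ext (by
        change _ * (t : T) = t * _
        rw [← commutatorElement_eq_one_iff_mul_comm, cm_mul_left hc, ← cm_mul_right hc,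
          commutatorElement_eq_one_iff_mul_comm, h.cen_of_sq t.2])
      exact h1 (congrArg Subtype.val this)
    have e : h.om2 hc = ⊤ := eq_top_iff.2 fun x _ => h4 x
    refine ⟨by rw [← card_top, ← e, c1, c2], h4, fun y hy => ?_⟩
    exact congrArg Subtype.val (c3 ⟨y, h4 y⟩ fun t => Subtype.ext (hy t))

end cube

end K4

theorem conj_iterate {G : Type*} [Group G] (α x : G) (n : ℕ) :
    (MulAut.conj α)^[n] x = α ^ n * x * (α ^ n)⁻¹ := by
  induction n with
  | zero => simp
  | succ n ih => rw [Function.iterate_succ_apply', ih, MulAut.conj_apply, pow_succ']; group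

/-- An automorphism of 3-power order as above has order 3. -/
theorem RK4.cube {G : Type*} [Group G] [Finite G] {T : Subgroup G} {α z : G} (h : RK4 (MulAut.conj α) T z)
    (hp : IsPGroup 2 T) (h3 : PiElt {3} α) (x : T) :
    res _ T h.nrm (res _ T h.nrm (res _ T h.nrm x)) = x := by
  haveI : Fact (Nat.Prime 2) := ⟨Nat.prime_two⟩
  obtain ⟨C, hC⟩ := exists_critical hp
  have hn : α ∈ 𝐍(T) := h.nrm
  have hk := (h.mono hC.le (hC.charIn.norm_le hn) (hC.center_le ⟨h.mem, mem_cent_iff'.2 h.cen⟩).1).k4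
  obtain ⟨k, e⟩ := (piElt_singleton_iff' Nat.prime_three).1 h3
  have hCp := hp.to_le hC.le
  have h1 := hk.cube_of_sq_central hCp (fun x y => Subtype.ext (by
    have := (hC.phi_le (pow_mem_phi hCp x.2)).2
    rw [pow_two] at this
    exact mem_cent_iff'.1 this y y.2)) (k := k) fun x => Subtype.ext (by
      rw [res_iterate, conj_iterate, e]; simp)
  have h2 : zpowers (α ^ 3) ≤ 𝐂(T) := hC.cents (copAct_zpowers_of_piElt hp (pow_mem hn 3)
    ((h3.pow 3).mono (by simp))) (zpowers_le.2 (mem_cent_iff'.2 fun y hy => by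
      have := congrArg Subtype.val (h1 ⟨y, hy⟩)
      change α * (α * (α * y * α⁻¹) * α⁻¹) * α⁻¹ = y at this
      conv_rhs => rw [← this]
      rw [pow_three]; group))
  refine Subtype.ext ?_
  change α * (α * (α * x * α⁻¹) * α⁻¹) * α⁻¹ = x
  conv_rhs => rw [← conj_eq_of_mem_cent (h2 (mem_zpowers _)) x.2]
  rw [pow_three]; group

end CA.Alp
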