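/-
Brauer: a simple group has no homocyclic Sylow 2-subgroup of rank 2 and exponent at least 4.
-/
import Cfsg.Agent.Lib.Alp.K4
import Cfsg.Agent.Lib.Blk.ZStar
import Cfsg.Agent.Lib.Char.Orth

set_option autoImplicit false
set_option linter.unusedSectionVars false
set_option linter.style.haveILetI false
set_option linter.unusedVariables false

namespace CA.Alp

open Cfsg Subgroup CA CA.Ch CA.Blk
open scoped ComplexConjugate

theorem descent (n : ℕ) : ∀ a b k : ℤ, a.natAbs ≤ n → a ^ 2 - a * b + b ^ 2 + k * (a * b * (a + b)) = 0 → a = 0 := by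
  induction n using Nat.strong_induction_on with
  | _ n ih =>
  intro a b k hn h
  by_contra h0
  rcases Int.even_or_odd' a with ⟨c, rfl | rfl⟩ <;> rcases Int.even_or_odd' b with ⟨d, rfl | rfl⟩
  · exact h0 (by rw [ih c.natAbs (by omega) c d (2 * k) le_rfl (by linarith), mul_zero])
  · have : 2 * (2 * c ^ 2 - c * (2 * d + 1) + 2 * d ^ 2 + 2 * d + k * (c * (2 * d + 1) * (2 * c + (2 * d + 1)))) + 1 = 0 := by
      linear_combination h
    omega
  · have : 2 * (2 * d ^ 2 - d * (2 * c + 1) + 2 * c ^ 2 + 2 * c + k * (d * (2 * c + 1) * (2 * d + (2 * c + 1)))) + 1 = 0 := by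
      linear_combination h
    omega
  · have : 2 * (2 * d ^ 2 + d + c + 2 * c ^ 2 - 2 * c * d + k * ((2 * d + 1) * (2 * c + 1) * (d + c + 1))) + 1 = 0 := by
      linear_combination h
    omega

theorem three_le {B : Type*} [DecidableEq B] {s : Finset B} {X Y Z : B} (hX : X ∈ s) (hY : Y ∈ s) (hZ : Z ∈ s)
    (h1 : X ≠ Y) (h2 : X ≠ Z) (h3 : Y ≠ Z) (v : B → ℤ) : v X * v X + v Y * v Y + v Z * v Z ≤ ∑ χ ∈ s, v χ * v χ := by
  have := Finset.sum_le_sum_of_subset_of_nonneg (s := {X, Y, Z}) (t := s) (f := fun χ => v χ * v χ)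
    (by simp [Finset.insert_subset_iff, *]) fun _ _ _ => mul_self_nonneg _
  rwa [Finset.sum_insert (by simp [*]), Finset.sum_pair h3, ← add_assoc] at this

theorem norm_three {B : Type*} [DecidableEq B] {s : Finset B} {v : B → ℤ} (h : ∑ χ ∈ s, v χ * v χ = 3) :
    ∃ X ∈ s, ∃ Y ∈ s, ∃ Z ∈ s, X ≠ Y ∧ X ≠ Z ∧ Y ≠ Z ∧ v X * v X = 1 ∧ v Y * v Y = 1 ∧ v Z * v Z = 1 ∧
      ∀ f : B → ℤ, ∑ χ ∈ s, v χ * f χ = v X * f X + v Y * f Y + v Z * f Z := by
  have h1 : ∀ χ ∈ s.filter (v · ≠ 0), v χ * v χ = 1 := fun χ hχ => by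
    obtain ⟨a, b⟩ := Finset.mem_filter.1 hχ
    have := Finset.single_le_sum (f := fun χ => v χ * v χ) (fun _ _ => mul_self_nonneg _) a
    rw [h] at this
    have h2 : v χ ≤ 1 := by nlinarith
    have h3 : -1 ≤ v χ := by nlinarith
    rcases (by omega : v χ = 1 ∨ v χ = -1) with e | e <;> rw [e] <;> rfl
  have h2 : ∀ f : B → ℤ, ∑ χ ∈ s, v χ * f χ = ∑ χ ∈ s.filter (v · ≠ 0), v χ * f χ := fun f =>
    (Finset.sum_filter_of_ne fun x _ hx => left_ne_zero_of_mul hx).symm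
  rw [h2, Finset.sum_congr rfl h1, Finset.sum_const, nsmul_eq_mul, mul_one] at h
  obtain ⟨X, Y, Z, a, b, c, e⟩ := Finset.card_eq_three.1 (by exact_mod_cast h)
  have m : ∀ {χ}, χ ∈ ({X, Y, Z} : Finset B) → χ ∈ s ∧ v χ * v χ = 1 := fun hχ =>
    ⟨(Finset.mem_filter.1 (e ▸ hχ)).1, h1 _ (e ▸ hχ)⟩
  exact ⟨X, (m (by simp)).1, Y, (m (by simp)).1, Z, (m (by simp)).1, a, b, c, (m (by simp)).2, (m (by simp)).2,
    (m (by simp)).2, fun f => by rw [h2, e, Finset.sum_insert (by simp [*]), Finset.sum_pair c, add_assoc]⟩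

theorem miss_cases {a b c x y z : ℤ} (hx : x * x = 1) (hy : y * y = 1) (hz : z * z = 1)
    (h : a * a + b * b + c * c ≤ 3) (h2 : x * a + y * b + z * c = 2) :
    (a = 0 ∧ b = y ∧ c = z) ∨ (a = x ∧ b = 0 ∧ c = z) ∨ (a = x ∧ b = y ∧ c = 0) := by
  have k : ∀ {a : ℤ}, a * a ≤ 3 → a = -1 ∨ a = 0 ∨ a = 1 := fun {a} h => by
    have h2 : a ≤ 1 := by nlinarith
    have h3 : -1 ≤ a := by nlinarith
    omega
  rcases mul_self_eq_one_iff.1 hx with rfl | rfl <;> rcases mul_self_eq_one_iff.1 hy with rfl | rfl <;>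
    rcases mul_self_eq_one_iff.1 hz with rfl | rfl <;>
    have := k (a := a) (by nlinarith [mul_self_nonneg b, mul_self_nonneg c]) <;>
    have := k (a := b) (by nlinarith [mul_self_nonneg a, mul_self_nonneg c]) <;>
    have := k (a := c) (by nlinarith [mul_self_nonneg a, mul_self_nonneg b]) <;> omega

/-- The combinatorial lemma on vectors of norm three. -/
theorem vec_three {B I : Type*} [DecidableEq B] {s : Finset B} {t : Finset I} {w : I → B → ℤ} {r : I → I → Prop}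
    (h3 : ∀ i ∈ t, ∀ j ∈ t, r i j → ∑ χ ∈ s, w i χ * w j χ = 3)
    (h2 : ∀ i ∈ t, ∀ j ∈ t, ¬ r i j → ∑ χ ∈ s, w i χ * w j χ = 2) (hr : ∀ i, r i i)
    (hc : ∀ i, ∃ u : Finset I, u.card ≤ 3 ∧ ∀ j, r i j → j ∈ u) (ht : 13 ≤ t.card) {i : I} (hi : i ∈ t) :
    ∃ X ∈ s, ∃ Y ∈ s, ∃ Z ∈ s, w i X * w i X = 1 ∧ w i Y * w i Y = 1 ∧ w i Z * w i Z = 1 ∧
      (∀ f : B → ℂ, ∑ χ ∈ s, w i χ * f χ = w i X * f X + w i Y * f Y + w i Z * f Z) ∧
      ∀ j ∈ t, w j X = w i X ∧ w j Y = w i Y ∧ (r i j → w j Z = w i Z) ∧ (¬ r i j → w j Z = 0) := by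
  classical
  have n3 : ∀ j ∈ t, ∑ χ ∈ s, w j χ * w j χ = 3 := fun j hj => h3 j hj j hj (hr j)
  have eq : ∀ j ∈ t, r i j → ∀ χ ∈ s, w j χ = w i χ := fun j hj hij χ hχ => by
    have : ∑ χ ∈ s, (w j χ - w i χ) * (w j χ - w i χ) = 0 := by
      rw [Finset.sum_congr rfl (g := fun χ => w j χ * w j χ + w i χ * w i χ - 2 * (w i χ * w j χ))
        fun _ _ => by ring, Finset.sum_sub_distrib, Finset.sum_add_distrib, ← Finset.mul_sum, n3 j hj, n3 i hi,
        h3 i hi j hj hij]; rfl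
    exact sub_eq_zero.1 (mul_self_eq_zero.1 ((Finset.sum_eq_zero_iff_of_nonneg fun _ _ => mul_self_nonneg _).1
      this χ hχ))
  have main : ∀ X ∈ s, ∀ Y ∈ s, ∀ Z ∈ s, X ≠ Y → X ≠ Z → Y ≠ Z → w i X * w i X = 1 → w i Y * w i Y = 1 →
      w i Z * w i Z = 1 → (∀ f : B → ℤ, ∑ χ ∈ s, w i χ * f χ = w i X * f X + w i Y * f Y + w i Z * f Z) →
      3 < ((t.filter fun j => ¬ r i j).filter fun j => w j Z = 0).card →
      ∀ j ∈ t, w j X = w i X ∧ w j Y = w i Y ∧ (r i j → w j Z = w i Z) ∧ (¬ r i j → w j Z = 0) :=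
    fun X hX Y hY Z hZ a b c x y z hf h4 j hj => by
    by_cases hij : r i j
    · exact ⟨eq j hj hij X hX, eq j hj hij Y hY, fun _ => eq j hj hij Z hZ, fun h => absurd hij h⟩
    have mc : ∀ j ∈ t, ¬ r i j → _ := fun j hj hij =>
      miss_cases x y z (n3 j hj ▸ three_le hX hY hZ a b c (w j)) ((hf _).symm.trans (h2 i hi j hj hij))
    obtain ⟨k, hk⟩ := Finset.card_pos.1 (h4.trans' (by norm_num : 0 < 3))
    obtain ⟨u, hu, hu'⟩ := hc k
    obtain ⟨l, hl, hlu⟩ := Finset.exists_mem_notMem_of_card_lt_card (hu.trans_lt h4)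
    simp only [Finset.mem_filter] at hk hl
    have z0 : w i Z ≠ 0 := fun e => by simp [e] at z
    have k1 := ((mc k hk.1.1 hk.1.2).resolve_left fun e => z0 (e.2.2.symm.trans hk.2)).resolve_left
      fun e => z0 (e.2.2.symm.trans hk.2)
    have l1 := ((mc l hl.1.1 hl.1.2).resolve_left fun e => z0 (e.2.2.symm.trans hl.2)).resolve_left
      fun e => z0 (e.2.2.symm.trans hl.2)
    have ge : ∀ k ∈ t, 2 ≤ ∑ χ ∈ s, w j χ * w k χ := fun k hk => by
      by_cases e : r j k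
      exacts [by rw [h3 j hj k hk e]; norm_num, (h2 j hj k hk e).ge]
    have le := three_le hX hY hZ a b c fun χ => w k χ + w l χ - w j χ
    rw [Finset.sum_congr rfl (g := fun χ => w k χ * w k χ + w l χ * w l χ + w j χ * w j χ + 2 * (w k χ * w l χ)
      - 2 * (w j χ * w k χ) - 2 * (w j χ * w l χ)) fun _ _ => by ring] at le
    simp only [Finset.sum_sub_distrib, Finset.sum_add_distrib, ← Finset.mul_sum, n3 _ hj, n3 _ hk.1.1, n3 _ hl.1.1,
      h2 k hk.1.1 l hl.1.1 fun e => hlu (hu' l e), k1, l1] at le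
    have g1 := ge k hk.1.1
    have g2 := ge l hl.1.1
    rcases mc j hj hij with e | e | e
    · simp only [e] at le; nlinarith
    · simp only [e] at le; nlinarith
    · exact ⟨e.1, e.2.1, fun h => absurd h hij, fun _ => e.2.2⟩
  obtain ⟨X, hX, Y, hY, Z, hZ, a, b, c, x, y, z, hf⟩ := norm_three (n3 i hi)
  have hf' : ∀ f : B → ℂ, ∑ χ ∈ s, w i χ * f χ = w i X * f X + w i Y * f Y + w i Z * f Z := fun f => by
    rw [← Finset.sum_subset (s₁ := {X, Y, Z}) (by simp [Finset.insert_subset_iff, *]) fun χ h1 h2 => ?_,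
      Finset.sum_insert (by simp [*]), Finset.sum_pair c, add_assoc]
    have := hf (Pi.single χ 1)
    simp only [Finset.mem_insert, Finset.mem_singleton, not_or] at h2
    simp only [Pi.single_apply, mul_ite, mul_one, mul_zero, Finset.sum_ite_eq', h1, if_true, Ne.symm h2.1,
      Ne.symm h2.2.1, Ne.symm h2.2.2, if_false, add_zero] at this
    simp [this]
  obtain ⟨u, hu, hu'⟩ := hc i
  have c1 := Finset.card_filter_add_card_filter_not (s := t) (r i)
  have c2 : (t.filter (r i)).card ≤ u.card := Finset.card_le_card fun j hj => hu' j (Finset.mem_filter.1 hj).2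
  set t' := t.filter fun j => ¬ r i j
  have c3 : t'.card ≤ _ := (Finset.card_le_card (t := t'.filter (w · X = 0) ∪ t'.filter (w · Y = 0) ∪
    t'.filter (w · Z = 0)) fun j hj => by
      have hj' := Finset.mem_filter.1 hj
      have := miss_cases x y z (n3 j hj'.1 ▸ three_le hX hY hZ a b c (w j))
        ((hf _).symm.trans (h2 i hi j hj'.1 hj'.2))
      simp only [Finset.mem_union, Finset.mem_filter, hj, true_and]
      tauto).trans ((Finset.card_union_le _ _).trans (Nat.add_le_add_right (Finset.card_union_le _ _) _))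
  rcases (by omega : 3 < (t'.filter (w · X = 0)).card ∨ 3 < (t'.filter (w · Y = 0)).card ∨
    3 < (t'.filter (w · Z = 0)).card) with e | e | e
  · exact ⟨Y, hY, Z, hZ, X, hX, y, z, x, fun f => by rw [hf']; ring,
      main Y hY Z hZ X hX c a.symm b.symm y z x (fun f => by rw [hf]; ring) e⟩
  · exact ⟨X, hX, Z, hZ, Y, hY, x, z, y, fun f => by rw [hf']; ring,
      main X hX Z hZ Y hY b a c.symm x z y (fun f => by rw [hf]; ring) e⟩
  · exact ⟨X, hX, Y, hY, Z, hZ, x, y, z, hf', main X hX Y hY Z hZ a b c x y z hf e⟩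

theorem sum_ch {W : Type*} [Group W] [Finite W] [IsMulCommutative W] (x : W) :
    ∑ l : Du W, l.ch x = reg W x := by
  rw [Du.expand (reg W), Finset.sum_apply]
  refine Finset.sum_congr rfl fun l _ => ?_
  rw [← ip_conj, ip_reg, Du.ch_apply_one, map_one, one_smul]

/-- The hypotheses of Brauer's argument. -/
structure HC {G : Type*} [Group G] [Finite G] (S : Subgroup G) (σ : S ≃* S) : Prop where
  comm : IsMulCommutative S
  two : IsPGroup 2 S
  fpf : ∀ x, σ x = x → x = 1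
  cube : ∀ x, σ (σ (σ x)) = x
  fus : ∀ x y : S, IsConj (x : G) y ↔ y = x ∨ y = σ x ∨ y = σ (σ x)
  col : ∀ x : S, x ≠ 1 → ∑ χ ∈ B0 G 2, χ x * conj (χ x) = Nat.card S

namespace HC
variable {G : Type*} [Group G] [Finite G] {S : Subgroup G} {σ : S ≃* S} (h : HC S σ)
include h

theorem elt (x : S) : constt {2} (x : G) = x := constt_eq_self ((h.two.piGrp Nat.prime_two).piElt x.2)

theorem dist {x : S} (hx : x ≠ 1) : x ≠ σ x ∧ x ≠ σ (σ x) ∧ σ x ≠ σ (σ x) :=
  have : x ≠ σ x := fun e => hx (h.fpf x e.symm)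
  ⟨this, fun e => this (by nth_rewrite 2 [e]; rw [h.cube]), σ.injective.ne this⟩

theorem sum_col [Fintype S] (f : S → ℂ) (h1 : f 1 = 0) (y : S) :
    (Nat.card S : ℂ)⁻¹ * ∑ x, f x * ∑ χ ∈ B0 G 2, χ y * conj (χ x) = f y + f (σ y) + f (σ (σ y)) := by
  classical
  have z : ∀ x : S, ¬ IsConj (y : G) x → ∑ χ ∈ B0 G 2, χ y * conj (χ x) = 0 := fun x hx =>
    sum_B0_eq_zero (by rwa [h.elt, h.elt])
  by_cases hy : y = 1
  · subst hy
    rw [Finset.sum_eq_zero fun x _ => ?_]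
    · simp [h1]
    by_cases hx : x = 1
    · rw [hx, h1, zero_mul]
    · rw [z x (by simpa [eq_comm] using hx), mul_zero]
  have e : ∀ x : S, IsConj (y : G) x → ∑ χ ∈ B0 G 2, χ y * conj (χ x) = Nat.card S := fun x hx => by
    obtain ⟨c, hc⟩ := isConj_iff.1 hx
    rw [← h.col y hy, ← hc]
    exact Finset.sum_congr rfl fun χ hχ => by rw [(irr_of_B0 hχ).isCF.conj]
  have d := h.dist hy
  rw [← Finset.sum_subset (Finset.subset_univ {y, σ y, σ (σ y)}) fun x _ hx => by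
    rw [z x (by simpa [h.fus, -isConj_iff] using hx), mul_zero], Finset.sum_insert (by simp [d.1, d.2.1]),
    Finset.sum_pair d.2.2, e _ ((h.fus _ _).2 (.inl rfl)), e _ ((h.fus _ _).2 (.inr (.inl rfl))),
    e _ ((h.fus _ _).2 (.inr (.inr rfl)))]
  have : (Nat.card S : ℂ) ≠ 0 := by exact_mod_cast Nat.card_pos.ne'
  field_simp
  ring

theorem sq_of_isConj {x : S} {a b : G} (ha : a * a = 1) (hb : b * b = 1) (e : IsConj (constt {2} (a * b)) x) :
    x * x = 1 := by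
  obtain ⟨k, hk⟩ := mem_zpowers_iff.1 (constt_mem_zpowers {2} (a * b))
  have e1 : IsConj (constt {2} (a * b)) (constt {2} (a * b))⁻¹ := isConj_iff.2 ⟨a, by
    rw [← hk, Inv.mul_zpow_left ha hb, mul_inv_cancel_right, zpow_neg]⟩
  obtain ⟨c, hc⟩ := isConj_iff.1 e
  have e2 : IsConj (x : G) (x⁻¹ : S) := (e.symm.trans e1).trans (isConj_iff.2 ⟨c, by rw [coe_inv, ← hc]; group⟩)
  rcases (h.fus _ _).1 e2 with t | t | t
  · exact mul_eq_one_iff_eq_inv.2 t.symm
  · have : σ (σ x) = x := by rw [← t, map_inv, ← t, inv_inv]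
    rw [h.fpf x (by nth_rewrite 1 [← this]; rw [h.cube]), one_mul]
  · have : σ x = x := by
      have := congrArg (fun y => σ (σ y)) t
      simp only [map_inv, h.cube] at this
      rw [← this, ← t, inv_inv]
    rw [h.fpf x this, one_mul]

theorem false (hG : ∀ χ : G → ℂ, IsIrr χ → χ 1 = 1 → χ = 1) (h16 : 16 ≤ Nat.card S) {u : S} (hu : u * u = 1)
    (hu1 : u ≠ 1) {g : S} (hg : g * g ≠ 1) : False := by
  classical
  haveI := h.comm
  haveI := Fintype.ofFinite G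
  haveI := Fintype.ofFinite S
  have : ∀ (l : Du S) (χ : G → ℂ), ∃ n : ℤ, χ ∈ B0 G 2 → ⟪χ ∘ S.subtype, 1 - l.ch⟫ = n := fun l χ => by
    by_cases hχ : χ ∈ B0 G 2
    · have := (irr_of_B0 hχ).isChar.comp S.subtype
      obtain ⟨a, ha⟩ := this.ip_nat isIrr_one.isChar
      obtain ⟨b, hb⟩ := this.ip_nat l.isChar
      exact ⟨a - b, fun _ => by rw [ip_sub_right, ha, hb]; simp⟩
    · exact ⟨0, fun t => absurd t hχ⟩
  choose w hw using this
  have hΘ : ∀ l y, ∑ χ ∈ B0 G 2, w l χ * χ y =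
      (Nat.card S : ℂ)⁻¹ * ∑ x : S, (1 - l.ch x) * ∑ χ ∈ B0 G 2, χ y * conj (χ x) := fun l y => by
    simp only [Finset.mul_sum]
    rw [Finset.sum_comm]
    refine Finset.sum_congr rfl fun χ hχ => ?_
    rw [← map_intCast (starRingEnd ℂ), ← hw l χ hχ, ip_conj, ip_def, Finset.mul_sum, Finset.sum_mul]
    exact Finset.sum_congr rfl fun x _ => by simp only [Pi.sub_apply, Pi.one_apply, Function.comp, coe_subtype]; ring
  let τ : Du S →* Du S := Du.comp σ.toMonoidHom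
  have τe : ∀ l x, (τ l).ch x = l.ch (σ x) := fun l x => rfl
  have τ3 : ∀ l, τ (τ (τ l)) = l := fun l => Du.ext' fun x => by rw [τe, τe, τe, h.cube]
  have τf : ∀ l, τ l = l → l = 1 := fun l e => Du.ext' fun x => by
    obtain ⟨y, rfl⟩ := fpf_surj h.fpf x
    rw [Du.ch_apply_mul, ← τe, e, ← Du.ch_apply_mul, inv_mul_cancel, Du.ch_apply_one]; rfl
  have τd : ∀ l, l ≠ 1 → τ l ≠ 1 ∧ τ (τ l) ≠ 1 ∧ l ≠ τ l ∧ l ≠ τ (τ l) ∧ τ l ≠ τ (τ l) := fun l hl =>
    have a : τ (τ l) ≠ 1 := fun e => hl (by rw [← τ3 l, e, map_one])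
    have b : τ l ≠ 1 := fun e => a (by rw [e, map_one])
    ⟨b, a, fun e => hl (τf l e.symm), fun e => hl (τf l (by nth_rewrite 1 [e]; rw [τ3])), fun e => b (τf _ e.symm)⟩
  have hS : ∀ l (y : S), ∑ χ ∈ B0 G 2, w l χ * χ y = 3 - l.ch y - (τ l).ch y - (τ (τ l)).ch y := fun l y => by
    rw [hΘ, h.sum_col (fun x => 1 - l.ch x) (by rw [Du.ch_apply_one, sub_self]), τe, τe, τe]; ring
  have w1 : ∀ l, l ≠ 1 → w l 1 = 1 := fun l hl => by
    have := hw l 1 (one_mem_B0 G 2)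
    rw [show (1 : G → ℂ) ∘ S.subtype = 1 from rfl, ip_sub_right, ip_one_one, ← ip_conj, Du.ip_ch_one, if_neg hl,
      map_zero, sub_zero] at this
    exact_mod_cast this.symm
  let r : Du S → Du S → Prop := fun l m => m = l ∨ m = τ l ∨ m = τ (τ l)
  have ip : ∀ l m, l ≠ 1 → m ≠ 1 → ∑ χ ∈ (B0 G 2).erase 1, w l χ * w m χ = if r l m then 3 else 2 :=
    fun l m hl hm => by
    have e : ∑ χ ∈ B0 G 2, (w l χ : ℂ) • (χ ∘ S.subtype) = (3 : ℂ) • 1 - l.ch - (τ l).ch - (τ (τ l)).ch := by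
      funext y
      simpa [Finset.sum_apply] using hS l y
    have e1 := congrArg (⟪·, 1 - m.ch⟫) e
    have d := τd l hl
    have o : ⟪(1 : S → ℂ), m.ch⟫ = 0 := by rw [← ip_conj, Du.ip_ch_one, if_neg hm, map_zero]
    rw [ip_sum_left, Finset.sum_congr rfl fun χ hχ => by rw [ip_smul_left, hw m χ hχ],
      ← Finset.add_sum_erase _ _ (one_mem_B0 G 2), w1 l hl, w1 m hm] at e1
    simp only [ip_sub_left, ip_sub_right, ip_smul_left, ip_one_one, o, Du.ip_ch_one, Du.ip_ch, hl, d.1, d.2.1,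
      if_false] at e1
    have e2 : ((∑ χ ∈ (B0 G 2).erase 1, w l χ * w m χ : ℤ) : ℂ) =
        2 + (if l = m then 1 else 0) + (if τ l = m then 1 else 0) + if τ (τ l) = m then 1 else 0 := by
      push_cast at e1 ⊢; linear_combination e1
    split_ifs with t
    · rcases t with rfl | rfl | rfl
      · rw [if_pos rfl, if_neg d.2.2.1.symm, if_neg d.2.2.2.1.symm] at e2; norm_num at e2; exact_mod_cast e2
      · rw [if_pos rfl, if_neg d.2.2.1, if_neg d.2.2.2.2.symm] at e2; norm_num at e2; exact_mod_cast e2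
      · rw [if_pos rfl, if_neg d.2.2.2.1, if_neg d.2.2.2.2] at e2; norm_num at e2; exact_mod_cast e2
    · simp only [r, not_or] at t
      rw [if_neg (Ne.symm t.1), if_neg (Ne.symm t.2.1), if_neg (Ne.symm t.2.2)] at e2
      norm_num at e2; exact_mod_cast e2
  let K : Subgroup S :=
    { carrier := {x | x * x = 1}
      one_mem' := mul_one 1
      mul_mem' := fun {a b} ha hb => by
        change _ = 1
        rw [mul_assoc, ← mul_assoc b, (h.comm.1.1 b a), mul_assoc a, show b * b = 1 from hb, mul_one]; exact ha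
      inv_mem' := fun {a} ha => by change _ = 1; rw [← mul_inv_rev, show a * a = 1 from ha, inv_one] }
  obtain ⟨l, hlK, hlg⟩ := Du.exists_ne_one K (g := g) hg
  have hl : l ≠ 1 := fun e => hlg (e ▸ rfl)
  replace hlK : ∀ x : S, x * x = 1 → l.ch x = 1 := mem_ann.1 hlK
  have mem : ∀ {m : Du S}, m ∈ Finset.univ.erase 1 ↔ m ≠ 1 := by simp
  obtain ⟨X, hX, Y, hY, Z, hZ, x1, y1, z1, hf, hv⟩ := vec_three (s := (B0 G 2).erase 1) (t := Finset.univ.erase 1)
    (w := w) (r := r) (fun i hi j hj t => by rw [ip i j (mem.1 hi) (mem.1 hj), if_pos t])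
    (fun i hi j hj t => by rw [ip i j (mem.1 hi) (mem.1 hj), if_neg t]) (fun i => .inl rfl)
    (fun i => ⟨{i, τ i, τ (τ i)}, Finset.card_le_three, fun j t => by simpa using t⟩)
    (by rw [Finset.card_erase_of_mem (Finset.mem_univ _), Finset.card_univ, ← Nat.card_eq_fintype_card,
      Du.card_comm]; omega) (mem.2 hl)
  have hf' : ∀ f : (G → ℂ) → ℂ, ∑ χ ∈ B0 G 2, w l χ * f χ = f 1 + w l X * f X + w l Y * f Y + w l Z * f Z :=
    fun f => by rw [← Finset.add_sum_erase _ _ (one_mem_B0 G 2), w1 l hl, hf]; push_cast; ring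
  have val : ∀ χ ∈ B0 G 2, ∃ c : ℕ, ∀ x : S, χ x = c * reg S x - ∑ m ∈ Finset.univ.erase 1, w m χ * m.ch x :=
    fun χ hχ => by
    obtain ⟨c, hc⟩ := ((irr_of_B0 hχ).isChar.comp S.subtype).ip_nat isIrr_one.isChar
    refine ⟨c, fun x => (congrFun (Du.expand (χ ∘ S.subtype)) x).trans ?_⟩
    have w0 : (w 1 χ : ℂ) = 0 := by rw [← hw 1 χ hχ, Du.ch_one, sub_self, ip_zero_right]
    rw [Finset.sum_erase _ (by rw [w0, zero_mul]), ← sum_ch, Finset.mul_sum, ← Finset.sum_sub_distrib,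
      Finset.sum_apply]
    exact Finset.sum_congr rfl fun m _ => by
      rw [← hw m χ hχ, ip_sub_right, hc, Pi.smul_apply, smul_eq_mul]; ring
  obtain ⟨N, hN⟩ : 2 ∣ Nat.card S := by
    obtain ⟨k, hk⟩ := IsPGroup.iff_card.1 h.two
    rw [hk] at h16 ⊢
    exact dvd_pow_self 2 (by rintro rfl; omega)
  have cst : ∀ χ ∈ B0 G 2, w l χ * w l χ = 1 → (∀ m ∈ Finset.univ.erase 1, w m χ = w l χ) →
      χ u = w l χ ∧ ∃ a : ℤ, w l χ * χ 1 = 1 + 2 * a := fun χ hχ h1 h2 => by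
    obtain ⟨c, hc⟩ := val χ hχ
    have : ∀ x : S, χ x = (c - w l χ) * reg S x + w l χ := fun x => by
      rw [hc, Finset.sum_congr rfl fun m hm => by rw [h2 m hm], ← Finset.mul_sum,
        Finset.sum_erase_eq_sub (Finset.mem_univ _), sum_ch]
      simp only [Du.ch_one, Pi.one_apply]; ring
    refine ⟨by rw [this, reg_ne hu1, mul_zero, zero_add], w l χ * (c - w l χ) * N, ?_⟩
    have e := this 1
    rw [reg_one, hN, coe_one] at e
    have h1' : (w l χ : ℂ) * w l χ = 1 := by exact_mod_cast h1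
    rw [e]; push_cast; linear_combination h1'
  obtain ⟨xu, a, ha⟩ := cst X (Finset.mem_of_mem_erase hX) x1 fun m hm => (hv m hm).1
  obtain ⟨yu, b, hb⟩ := cst Y (Finset.mem_of_mem_erase hY) y1 fun m hm => (hv m hm).2.1
  have d := τd l hl
  have su : σ u * σ u = 1 := by rw [← map_mul, hu, map_one]
  have zu : Z u = -3 * w l Z := by
    obtain ⟨c, hc⟩ := val Z (Finset.mem_of_mem_erase hZ)
    rw [hc, reg_ne hu1, ← Finset.sum_subset (s₁ := {l, τ l, τ (τ l)}) (by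
      simp [Finset.insert_subset_iff, hl, d.1, d.2.1]) fun m hm t => by
        rw [(hv m hm).2.2.2 (by simpa [r] using t)]; simp, Finset.sum_insert (by simp [d.2.2.1, d.2.2.2.1]),
      Finset.sum_pair d.2.2.2.2, (hv _ (mem.2 d.1)).2.2.1 (.inr (.inl rfl)),
      (hv _ (mem.2 d.2.1)).2.2.1 (.inr (.inr rfl)), τe, τe, τe, hlK u hu, hlK _ su,
      hlK _ (by rw [← map_mul, su, map_one])]
    ring
  have e1 := (hf' fun χ => χ 1).symm.trans (hS l 1)
  have hu' : (u : G) * u = 1 := congrArg Subtype.val hu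
  have e2 : ∑ χ ∈ B0 G 2, w l χ * (χ u * χ u / χ 1) = 0 := by
    have k : ∀ y : G, ∑ χ ∈ B0 G 2, w l χ * χ (y * u * y⁻¹ * u) = 0 := fun y => by
      rw [hΘ, Finset.sum_eq_zero fun x _ => ?_, mul_zero]
      by_cases t : x * x = 1
      · rw [hlK x t, sub_self, zero_mul]
      · rw [sum_B0_eq_zero fun e => t (h.sq_of_isConj (by rw [conj_mul, hu']; simp) hu' (h.elt x ▸ e)), mul_zero]
    have := Finset.sum_eq_zero fun y (_ : y ∈ Finset.univ) => k y
    rw [Finset.sum_comm, Finset.sum_congr rfl (g := fun χ => Nat.card G * (w l χ * (χ u * χ u / χ 1)))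
      fun χ hχ => ?_, ← Finset.mul_sum, mul_eq_zero] at this
    · exact this.resolve_left (by exact_mod_cast Nat.card_pos.ne')
    · obtain ⟨n, hn, e⟩ := (irr_of_B0 hχ).nat
      have n0 : χ 1 ≠ 0 := by rw [e]; exact_mod_cast hn.ne'
      have := sum_conj_irr (irr_of_B0 hχ) u u
      rw [← Finset.mul_sum]
      field_simp
      linear_combination (w l χ) * this
  rw [hf' fun χ => χ u * χ u / χ 1, xu, yu, zu] at e2
  have n0 : ∀ {χ}, χ ∈ (B0 G 2).erase 1 → χ 1 ≠ 0 := fun hχ => by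
    obtain ⟨n, hn, e⟩ := (irr_of_B0 (Finset.mem_of_mem_erase hχ)).nat
    rw [e]; exact_mod_cast hn.ne'
  have x0 := n0 hX
  have y0 := n0 hY
  have z0 := n0 hZ
  simp only [Pi.one_apply, Du.ch_apply_one, coe_one] at e1 e2
  have x2 : (w l X : ℂ) * w l X = 1 := by exact_mod_cast x1
  have y2 : (w l Y : ℂ) * w l Y = 1 := by exact_mod_cast y1
  have z2 : (w l Z : ℂ) * w l Z = 1 := by exact_mod_cast z1
  have ex : X 1 = w l X * (1 + 2 * a) := by linear_combination (w l X) * ha - X 1 * x2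
  have ey : Y 1 = w l Y * (1 + 2 * b) := by linear_combination (w l Y) * hb - Y 1 * y2
  have ez : Z 1 = w l Z * (-3 - 2 * a - 2 * b) := by
    linear_combination (w l Z) * (e1 - ha - hb) - Z 1 * z2
  have : (a : ℂ) ^ 2 - a * b + b ^ 2 + 1 * (a * b * (a + b)) = 0 := by
    rw [ex, ey, ez] at e2
    rw [ex] at x0
    rw [ey] at y0
    rw [ez] at z0
    rw [mul_ne_zero_iff] at x0 y0 z0
    obtain ⟨_, _⟩ := x0
    obtain ⟨_, _⟩ := y0
    obtain ⟨_, _⟩ := z0
    field_simp at e2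
    rw [pow_two, pow_two, pow_two, x2, y2, z2] at e2
    linear_combination (-1 / 8) * e2
  have a0 := descent _ a b 1 le_rfl (by exact_mod_cast this)
  obtain ⟨n, hn, e⟩ := (irr_of_B0 (Finset.mem_of_mem_erase hX)).nat
  refine (Finset.mem_erase.1 hX).1 (hG X (irr_of_B0 (Finset.mem_of_mem_erase hX)) ?_)
  rw [a0] at ex
  rcases mul_self_eq_one_iff.1 x1 with t | t <;> rw [t] at ex
  · simpa using ex
  · have : (n : ℤ) = -1 := by
      rw [e] at ex
      have : (n : ℂ) = -1 := by simpa using ex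
      exact_mod_cast this
    omega

end HC

end CA.Alp
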