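/-
The Sylow 2-subgroup of `PSU₃(4)`: presentation and recognition.
-/
import Cfsg.Agent.Lib.Alp.K4
import Cfsg.Agent.Lib.Classical.UnitaryModel

set_option autoImplicit false
set_option linter.unusedSectionVars false
set_option linter.style.haveILetI false
set_option linter.unusedVariables false

namespace CA.Alp

open Cfsg Subgroup CA
open scoped commutatorElement

variable {G : Type*} [Group G] {G' : Type*} [Group G']

/-- The relations of the Sylow 2-subgroup of `PSU₃(4)`. -/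
structure U34 (a0 a1 b0 b1 z0 z1 : G) : Prop where
  s0 : z0 * z0 = 1
  s1 : z1 * z1 = 1
  c0 : ⁅z0, a1⁆ = 1
  c1 : ⁅z0, b0⁆ = 1
  c2 : ⁅z1, a0⁆ = 1
  c3 : ⁅z1, a1⁆ = 1
  c4 : ⁅z1, b1⁆ = 1
  q0 : a0 * a0 = z0
  q1 : a1 * a1 = z0 * z1
  q2 : b0 * b0 = z1
  q3 : b1 * b1 = z0
  r0 : ⁅a0, a1⁆ = 1
  r1 : ⁅b0, b1⁆ = 1
  r2 : ⁅a0, b0⁆ = z0
  r3 : ⁅a0, b1⁆ = z1
  r4 : ⁅a1, b0⁆ = z1
  r5 : ⁅a1, b1⁆ = z0 * z1

/-- `{x ∈ N(L) | [x, y] ∈ L}` -/
def cD (y : G) (L : Subgroup G) : Subgroup G where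
  carrier := {x | x ∈ 𝐍(L) ∧ ⁅x, y⁆ ∈ L}
  one_mem' := ⟨one_mem _, by simp⟩
  mul_mem' := fun {a b} ha hb => ⟨mul_mem ha.1 hb.1, by
    have : ⁅a * b, y⁆ = a * ⁅b, y⁆ * a⁻¹ * ⁅a, y⁆ := by simp only [commutatorElement_def]; group
    rw [this]; exact mul_mem (conj_mem_of_mem_normalizer ha.1 hb.2) ha.2⟩
  inv_mem' := fun {a} ha => ⟨inv_mem ha.1, by
    have : ⁅a⁻¹, y⁆ = a⁻¹ * ⁅a, y⁆⁻¹ * a := by simp only [commutatorElement_def]; group
    rw [this]; exact conj_inv_mem_of_mem_normalizer ha.1 (inv_mem ha.2)⟩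

theorem mem_zpowers_of_sq {z u : G} (hz : z * z = 1) (hu : u ∈ zpowers z) : u = 1 ∨ u = z := by
  obtain ⟨k, rfl⟩ := mem_zpowers_iff.1 hu
  have : z ^ (2 : ℤ) = 1 := by rw [zpow_two, hz]
  rcases Int.even_or_odd' k with ⟨d, rfl | rfl⟩
  · left; rw [zpow_mul, this, one_zpow]
  · right; rw [zpow_add, zpow_mul, this, one_zpow, one_mul, zpow_one]

theorem card_sup_zpowers_le [Finite G] {K : Subgroup G} {x : G} (hn : x ∈ 𝐍(K)) (hx : x * x ∈ K) :
    Nat.card ↥(K ⊔ zpowers x) ≤ Nat.card K * 2 ∧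
      (x ∉ K → Nat.card ↥(K ⊔ zpowers x) = Nat.card K * 2) := by
  haveI : Fact (Nat.Prime 2) := ⟨Nat.prime_two⟩
  have h : x ∉ K → Nat.card ↥(K ⊔ zpowers x) = Nat.card K * 2 := fun h =>
    card_sup_zpowers hn h (by rwa [pow_two])
  refine ⟨?_, h⟩
  by_cases h1 : x ∈ K
  · rw [sup_eq_left.2 (zpowers_le.2 h1)]; omega
  · exact (h h1).le

namespace U34
variable {a0 a1 b0 b1 z0 z1 : G} (h : U34 a0 a1 b0 b1 z0 z1)
include h

theorem map (f : G →* G') : U34 (f a0) (f a1) (f b0) (f b1) (f z0) (f z1) := by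
  obtain ⟨_, _, _, _, _, _, _, _, _, _, _, _, _, _, _, _, _⟩ := h
  constructor <;> simp only [← map_mul, ← map_commutatorElement, *, map_one]

omit h in
theorem of_map {f : G →* G'} (hf : Function.Injective f)
    (h : U34 (f a0) (f a1) (f b0) (f b1) (f z0) (f z1)) : U34 a0 a1 b0 b1 z0 z1 := by
  obtain ⟨_, _, _, _, _, _, _, _, _, _, _, _, _, _, _, _, _⟩ := h
  constructor <;> apply hf <;> simp only [map_mul, map_commutatorElement, *, map_one]

theorem prod {a0' a1' b0' b1' z0' z1' : G'} (h' : U34 a0' a1' b0' b1' z0' z1') :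
    U34 (a0, a0') (a1, a1') (b0, b0') (b1, b1') (z0, z0') (z1, z1') := by
  obtain ⟨_, _, _, _, _, _, _, _, _, _, _, _, _, _, _, _, _⟩ := h
  obtain ⟨_, _, _, _, _, _, _, _, _, _, _, _, _, _, _, _, _⟩ := h'
  constructor <;> apply Prod.ext <;> assumption

theorem card [Finite G] : Nat.card (closure {a0, a1, b0, b1} : Subgroup G) ≤ 64 ∧
    (z0 ≠ 1 → z1 ≠ 1 → z0 ≠ z1 → Nat.card (closure {a0, a1, b0, b1} : Subgroup G) = 64) := by
  set H : Subgroup G := closure {a0, a1, b0, b1} with hH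
  have m0 : a0 ∈ H := subset_closure (by simp)
  have m1 : a1 ∈ H := subset_closure (by simp)
  have m2 : b0 ∈ H := subset_closure (by simp)
  have m3 : b1 ∈ H := subset_closure (by simp)
  have n0 : z0 ∈ H := h.q0 ▸ mul_mem m0 m0
  have n1 : z1 ∈ H := h.q2 ▸ mul_mem m2 m2
  have cc : ∀ {x y : G}, ⁅x, y⁆ = 1 → y ∈ 𝐂[x] := fun e =>
    mem_cent1_iff.2 (commutatorElement_eq_one_iff_mul_comm.1 e).symm
  have k0 : H ≤ 𝐂[z0] := (closure_le _).2 (by
    rintro _ (rfl | rfl | rfl | rfl)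
    exacts [mem_cent1_iff.2 (by rw [← h.q0, mul_assoc]), cc h.c0, cc h.c1,
      mem_cent1_iff.2 (by rw [← h.q3, mul_assoc])])
  have k1 : H ≤ 𝐂[z1] := (closure_le _).2 (by
    rintro _ (rfl | rfl | rfl | rfl)
    exacts [cc h.c2, cc h.c3, mem_cent1_iff.2 (by rw [← h.q2, mul_assoc]), cc h.c4])
  set U : Subgroup G := zpowers z0 ⊔ zpowers z1 with hU
  have u0 : z0 ∈ U := mem_sup_left (mem_zpowers _)
  have u1 : z1 ∈ U := mem_sup_right (mem_zpowers _)
  have kU : H ≤ 𝐂(U) := by rw [cent_sup, cent_zpowers, cent_zpowers]; exact le_inf k0 k1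
  have nU : H ≤ 𝐍(U) := norms_of_cents kU
  have sw : ∀ {x y : G}, ⁅x, y⁆ ∈ U → ⁅y, x⁆ ∈ U := fun e => by rw [← commutatorElement_inv]; exact inv_mem e
  have dU : ⁅H, H⁆ ≤ U := by
    have d1 : ∀ y ∈ ({a0, a1, b0, b1} : Set G), H ≤ cD y U := fun y hy => (closure_le _).2 fun x hx =>
      ⟨nU (subset_closure hx), by
        rcases hx with rfl | rfl | rfl | rfl <;> rcases hy with rfl | rfl | rfl | rfl <;>
          first
          | (rw [commutatorElement_self]; exact one_mem _)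
          | (simp only [h.r0, h.r1, h.r2, h.r3, h.r4, h.r5, one_mem, u0, u1, mul_mem u0 u1]; done)
          | (apply sw; simp only [h.r0, h.r1, h.r2, h.r3, h.r4, h.r5, one_mem, u0, u1, mul_mem u0 u1])⟩
    refine commutator_le.2 fun x hx y hy => sw ?_
    exact ((closure_le (cD x U)).2 (fun y hy => ⟨nU (subset_closure hy), sw (d1 y hy hx).2⟩) hy).2
  have UH : U ≤ H := sup_le (zpowers_le.2 n0) (zpowers_le.2 n1)
  have nn : ∀ {K : Subgroup G}, U ≤ K → K ≤ H → H ≤ 𝐍(K) := fun a b => norms_of_der_le (dU.trans a) b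
  have t0 : Nat.card (zpowers z0) ≤ 2 ∧ (z0 ≠ 1 → Nat.card (zpowers z0) = 2) := by
    have := card_sup_zpowers_le (K := ⊥) (x := z0) (norms_bot (mem_top _)) (h.s0 ▸ one_mem _)
    rwa [bot_sup_eq, card_bot, one_mul, mem_bot] at this
  have t1 := card_sup_zpowers_le (K := zpowers z0) (norms_zpowers_of_cent1 k0 n1) (h.s1 ▸ one_mem _)
  have l2 : U ⊔ zpowers a0 ≤ H := sup_le UH (zpowers_le.2 m0)
  have l3 : U ⊔ zpowers a0 ⊔ zpowers a1 ≤ H := sup_le l2 (zpowers_le.2 m1)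
  have l4 : U ⊔ zpowers a0 ⊔ zpowers a1 ⊔ zpowers b0 ≤ H := sup_le l3 (zpowers_le.2 m2)
  have v2 : U ≤ U ⊔ zpowers a0 := le_sup_left
  have v3 : U ≤ U ⊔ zpowers a0 ⊔ zpowers a1 := v2.trans le_sup_left
  have v4 : U ≤ U ⊔ zpowers a0 ⊔ zpowers a1 ⊔ zpowers b0 := v3.trans le_sup_left
  have t2 := card_sup_zpowers_le (nU m0) (h.q0 ▸ u0)
  have t3 := card_sup_zpowers_le (nn v2 l2 m1) (h.q1 ▸ v2 (mul_mem u0 u1))
  have t4 := card_sup_zpowers_le (nn v3 l3 m2) (h.q2 ▸ v3 u1)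
  have t5 := card_sup_zpowers_le (nn v4 l4 m3) (h.q3 ▸ v4 u0)
  have e : U ⊔ zpowers a0 ⊔ zpowers a1 ⊔ zpowers b0 ⊔ zpowers b1 = H :=
    le_antisymm (sup_le l4 (zpowers_le.2 m3)) ((closure_le _).2 (by
      rintro _ (rfl | rfl | rfl | rfl)
      exacts [mem_sup_left (mem_sup_left (mem_sup_left (mem_sup_right (mem_zpowers _)))),
        mem_sup_left (mem_sup_left (mem_sup_right (mem_zpowers _))),
        mem_sup_left (mem_sup_right (mem_zpowers _)), mem_sup_right (mem_zpowers _)]))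
  rw [e] at t5
  rw [← hU] at t1
  refine ⟨by omega, fun e0 e1 e2 => ?_⟩
  have uD : ∀ {y : G} {L : Subgroup G}, y ∈ H → H ≤ 𝐍(L) → U ≤ cD y L := fun hy hL x hx =>
    ⟨hL (UH hx), by rw [commutatorElement_eq_one_iff_mul_comm.2 (mem_cent_iff.1 (kU hy) x hx)]; exact one_mem _⟩
  have N0 := norms_zpowers_of_cent1 k0
  have N1 := norms_zpowers_of_cent1 k1
  have w0 := t0.2 e0
  have w1 := t1.2 fun hm => (mem_zpowers_of_sq h.s0 hm).elim e1 e2.symm
  have w2 := t2.2 fun hm => e0 (h.r2 ▸ (uD m2 norms_bot hm).2)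
  have w3 := t3.2 fun hm => by
    have := (sup_le (uD m3 N1) (zpowers_le.2 ⟨N1 m0, h.r3 ▸ mem_zpowers _⟩) hm).2
    rw [h.r5, mul_mem_cancel_right (mem_zpowers _)] at this
    exact (mem_zpowers_of_sq h.s1 this).elim e0 e2
  have w4 := t4.2 fun hm => by
    have := sup_le (sup_le ((cents_symm kU).trans (cent_le_cent1 m0)) (zpowers_le.2 (self_mem_cent1 _)))
      (zpowers_le.2 (cc h.r0)) hm
    exact e0 (h.r2 ▸ commutatorElement_eq_one_iff_mul_comm.2 (mem_cent1_iff.1 this).symm)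
  have w5 := t5.2 fun hm => by
    have := (sup_le (sup_le (sup_le (uD m0 N0) (zpowers_le.2 ⟨N0 m0, by simp⟩))
      (zpowers_le.2 ⟨N0 m1, by rw [← commutatorElement_inv, h.r0]; simp⟩))
      (zpowers_le.2 ⟨N0 m2, by rw [← commutatorElement_inv, h.r2]; simp⟩) hm).2
    rw [← commutatorElement_inv, h.r3, inv_mem_iff] at this
    exact (mem_zpowers_of_sq h.s0 this).elim e1 e2.symm
  omega

end U34

/-- `G` is the group of order 64 with the relations `U34`. -/
def IsU34 (G : Type*) [Group G] : Prop :=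
  Nat.card G = 64 ∧ ∃ a0 a1 b0 b1 z0 z1 : G, U34 a0 a1 b0 b1 z0 z1 ∧ z0 ≠ 1 ∧ z1 ≠ 1 ∧ z0 ≠ z1

theorem IsU34.equiv (h : IsU34 G) (h' : IsU34 G') : Nonempty (G ≃* G') := by
  obtain ⟨c, a0, a1, b0, b1, z0, z1, h, e0, e1, e2⟩ := h
  obtain ⟨c', a0', a1', b0', b1', z0', z1', h', e0', e1', e2'⟩ := h'
  haveI : Finite G := Nat.finite_of_card_ne_zero (by omega)
  haveI : Finite G' := Nat.finite_of_card_ne_zero (by omega)
  have t : closure {a0, a1, b0, b1} = (⊤ : Subgroup G) :=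
    eq_of_le_of_card_eq le_top (by rw [h.card.2 e0 e1 e2, card_top, c])
  have t' : closure {a0', a1', b0', b1'} = (⊤ : Subgroup G') :=
    eq_of_le_of_card_eq le_top (by rw [h'.card.2 e0' e1' e2', card_top, c'])
  have k := (h.prod h').card.1
  set D : Subgroup (G × G') := closure {(a0, a0'), (a1, a1'), (b0, b0'), (b1, b1')}
  have s1 : Function.Surjective ((MonoidHom.fst G G').comp D.subtype) := by
    rw [← MonoidHom.range_eq_top, MonoidHom.range_comp, range_subtype, MonoidHom.map_closure, ← t]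
    simp [Set.image_insert_eq]
  have s2 : Function.Surjective ((MonoidHom.snd G G').comp D.subtype) := by
    rw [← MonoidHom.range_eq_top, MonoidHom.range_comp, range_subtype, MonoidHom.map_closure, ← t']
    simp [Set.image_insert_eq]
  exact ⟨(MulEquiv.ofBijective _ (s1.bijective_of_nat_card_le (c ▸ k))).symm.trans
    (MulEquiv.ofBijective _ (s2.bijective_of_nat_card_le (c' ▸ k)))⟩

theorem U34.isU34 [Finite G] {a0 a1 b0 b1 z0 z1 : G} (h : U34 a0 a1 b0 b1 z0 z1) (e0 : z0 ≠ 1) (e1 : z1 ≠ 1)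
    (e2 : z0 ≠ z1) : IsU34 (closure {a0, a1, b0, b1} : Subgroup G) := by
  set H : Subgroup G := closure {a0, a1, b0, b1}
  have m0 : a0 ∈ H := subset_closure (by simp)
  have m2 : b0 ∈ H := subset_closure (by simp)
  exact ⟨h.card.2 e0 e1 e2, ⟨a0, m0⟩, ⟨a1, subset_closure (by simp)⟩, ⟨b0, m2⟩, ⟨b1, subset_closure (by simp)⟩,
    ⟨z0, h.q0 ▸ mul_mem m0 m0⟩, ⟨z1, h.q2 ▸ mul_mem m2 m2⟩, U34.of_map H.subtype_injective h,
    fun e => e0 (congrArg Subtype.val e), fun e => e1 (congrArg Subtype.val e),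
    fun e => e2 (congrArg Subtype.val e)⟩

namespace K4
variable {T : Type*} [Group T] [Finite T] {σ : T ≃* T} {z : T} (h : K4 σ z) (hp : IsPGroup 2 T)
  (h3 : ∀ x, σ (σ (σ x)) = x) (h4 : ∀ x : T, x * x * (x * x) = 1)
include h hp h3 h4

theorem cm_sq (x y : T) : ⁅x, y⁆ * ⁅x, y⁆ = 1 := by
  rw [← cm_mul_left (h.cl2 hp h3), commutatorElement_eq_one_iff_mul_comm, h.cen_of_sq (h4 x)]

theorem sq_mul_sigma {a b : T} (ha : a * a = z) (hab : ⁅a, b⁆ = z) : σ a * b * (σ a * b) = z * (b * b) := by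
  rw [mul_sq (h.cl2 hp h3), ← map_mul, ha, h.cm_right hp h3, ← commutatorElement_inv, hab,
    inv_eq_of_mul_eq_one_left h.sq, h.tri, mul_assoc, h.cen_of_sq (h4 b), ← mul_assoc, h.m3]

theorem sq_ne {a b : T} (ha : a * a = z) (hab : ⁅a, b⁆ = z) : b * b ≠ z := fun e => by
  have h1 := h.sq_mul_sigma hp h3 h4 ha hab
  rw [e, h.sq] at h1
  have h2 := commutatorElement_eq_one_iff_mul_comm.2 (h.cen_of_sq h1 a).symm
  rw [cm_mul_right (h.cl2 hp h3), hab, commutatorElement_eq_one_iff_commute.2 (h.comm hp h3 a), one_mul] at h2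
  exact h.ne h2

theorem isU34 (hc : Nat.card T = 64) (hZ : ∀ y : T, (∀ t, y * t = t * y) → y * y = 1) : IsU34 T := by
  obtain ⟨a, ha⟩ : ∃ a : T, a * a ≠ 1 := by
    by_contra hn
    push Not at hn
    have := h.ncard
    rw [show {x : T | x * x = 1} = Set.univ from Set.eq_univ_of_forall hn, Set.ncard_univ] at this
    omega
  obtain ⟨b, hb⟩ : ∃ b : T, a * b ≠ b * a := by
    by_contra hn
    push Not at hn
    exact ha (hZ a hn)
  replace h := h.of_ne (h4 a) ha
  generalize hz : a * a = w at h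
  have cl := h.cl2 hp h3
  obtain ⟨b, hb⟩ : ∃ b : T, ⁅a, b⁆ = w := by
    rcases h.inv _ (h.cm_sq hp h3 h4 a b) with e | e | e | e
    · exact absurd (commutatorElement_eq_one_iff_mul_comm.1 e) hb
    · exact ⟨b, e⟩
    · exact ⟨σ b, by rw [h.cm_right hp h3, e, h3]⟩
    · exact ⟨σ (σ b), by rw [h.cm_right hp h3, h.cm_right hp h3, h3, e, h.tri']⟩
  have ca : ⁅a, σ a⁆ = 1 := commutatorElement_eq_one_iff_commute.2 (h.comm hp h3 a)
  obtain ⟨b, hb, hb2⟩ : ∃ b : T, ⁅a, b⁆ = w ∧ b * b = w * σ w := by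
    rcases h.inv _ (h4 b) with e | e | e | e
    · exact absurd (hb ▸ commutatorElement_eq_one_iff_mul_comm.2 (h.cen_of_sq e a).symm) h.ne
    · exact absurd e (h.sq_ne hp h3 h4 hz hb)
    · exact ⟨σ a * b, by rw [cm_mul_right cl, ca, one_mul, hb], by rw [h.sq_mul_sigma hp h3 h4 hz hb, e]⟩
    · exact ⟨b, hb, e⟩
  have cz : ∀ {u : T} (x : T), u * u = 1 → ⁅u, x⁆ = 1 := fun x e =>
    commutatorElement_eq_one_iff_mul_comm.2 (h.cen_of_sq e x)
  exact ⟨hc, a, σ a, b, σ b, w, w * σ w, ⟨h.sq, h.sq'', cz _ h.sq, cz _ h.sq, cz _ h.sq'', cz _ h.sq'',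
    cz _ h.sq'', hz, by rw [← map_mul, hz, h.m2], hb2, by rw [← map_mul, hb2, h.tri'], ca,
    commutatorElement_eq_one_iff_commute.2 (h.comm hp h3 b), hb, by rw [h.cm_right hp h3, hb, h.tri],
    by rw [h.cm_left hp h3, hb, h.tri], by rw [← map_commutatorElement, hb, h.m2]⟩, h.ne, h.ne'', h.mv'.symm⟩

end K4

open CA.Unit in
theorem exists_u34_unitary {F : Type*} [Field F] [StarRing F] [Fintype F] (hK : Cl.IsFq2 F 4) :
    ∃ a0 a1 b0 b1 z0 z1 : SU (std F (Fin 3)), U34 a0 a1 b0 b1 z0 z1 ∧ z0 ≠ 1 ∧ z1 ≠ 1 ∧ z0 ≠ z1 := by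
  have hG := good_of_isFq2 hK
  have hs := hK.exists_star_ne
  obtain ⟨e, f, p⟩ := exists_hyp_std hG (n := 3) (by norm_num)
  obtain ⟨w₀, we, wf, ww⟩ := p.exists_nonisotropic hs nd_std (by simp)
  obtain ⟨s₀, hw⟩ := exists_smul_norm_eq hG ww (star_one F)
  have he : std F (Fin 3) (s₀ • w₀) e = 0 := by rw [h_smul_left, we, mul_zero]
  generalize s₀ • w₀ = w at hw he
  have two : (2 : F) = 0 := by
    have := FiniteField.cast_card_eq_zero F
    rw [hK.card] at this
    exact pow_eq_zero_iff (n := 4) (by norm_num) |>.1 (by rw [← this]; norm_num)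
  have adm : ∀ {s c : F}, c + star c = s * star s → Adm (std F (Fin 3)) e (s • w) c := fun h =>
    ⟨p.ee, by rw [h_smul_right, h_eq_zero_comm he, mul_zero], by
      rw [h, h_smul_left, h_smul_right, hw, mul_one]⟩
  let E : F → F → SU (std F (Fin 3)) := fun s c => ⟨eich _ e (s • w) c, detU_eich _ _ _⟩
  have mul : ∀ {s c s' c' : F}, c + star c = s * star s → c' + star c' = s' * star s' →
      E s c * E s' c' = E (s + s') (c + c' + s' * star s) := fun h h' => Subtype.ext (by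
    change eich _ _ _ _ * eich _ _ _ _ = eich _ _ _ _
    rw [eich_mul (adm h) (adm h'), add_smul, h_smul_left, h_smul_right, hw, mul_one])
  have one : E 0 0 = 1 := Subtype.ext (by change eich _ _ _ _ = 1; rw [zero_smul, eich_zero p.ee])
  have fx : ∀ {d : F}, star d = d → d + star d = 0 * star 0 := fun h => by
    rw [h, zero_mul, ← two_mul, two, zero_mul]
  have inj : ∀ {d : F}, star d = d → E 0 d = 1 → d = 0 := fun h e' => by
    have h1 := congrArg (fun g : SU (std F (Fin 3)) => g.1.1 f) e'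
    change (eich _ e (0 • w) _).1 f = f at h1
    rw [eich_apply (adm (fx h)), p.fe] at h1
    simpa [p.ne_zero, h_zero_right] using h1
  have sq : ∀ {s c : F}, c + star c = s * star s → E s c * E s c = E 0 (s * star s) := fun h => by
    rw [mul h h, ← two_mul, ← two_mul, two, zero_mul, zero_mul, zero_add]
  have cm : ∀ {s c s' c' d : F}, c + star c = s * star s → c' + star c' = s' * star s' →
      s * star s' + s' * star s = d → ⁅E s c, E s' c'⁆ = E 0 d := fun {s c s' c' d} h h' hd => by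
    have hd' : star d = d := by rw [← hd]; simp [mul_comm, add_comm]
    have h'' : c' + c + s * star s' + star (c' + c + s * star s') = (s' + s) * star (s' + s) := by
      simp only [star_add, star_mul', star_star]; linear_combination h + h'
    rw [commutatorElement_def, mul_assoc (_ * _), ← mul_inv_rev, mul_inv_eq_iff_eq_mul, mul h h', mul h' h,
      mul (fx hd') h'']
    congr 1
    · ring
    · rw [star_zero]; linear_combination hd - (s * star s') * two
  have zz : ∀ {d d' : F}, star d = d → star d' = d' → E 0 d * E 0 d' = E 0 (d + d') := fun h h' => by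
    rw [mul (fx h) (fx h')]; simp
  obtain ⟨β, hβ⟩ := Cl.exists_trace_eq hs (star_one F)
  obtain ⟨ω, hω⟩ : ∃ ω, ω = β * star β := ⟨_, rfl⟩
  have sω : star ω = ω := by rw [hω, star_mul', star_star, mul_comm]
  have qω : ω * ω = 1 + ω := by
    have := hK.star_eq β
    rw [hω]
    have e : star β = 1 - β := by linear_combination hβ
    rw [e] at this ⊢
    linear_combination -this + (β ^ 2 - β ^ 3 - β) * two
  have tr : ∀ s : F, ∃ c, c + star c = s * star s := fun s =>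
    Cl.exists_trace_eq hs (by rw [star_mul', star_star, mul_comm])
  obtain ⟨c0, h0⟩ := tr 1
  obtain ⟨c1, h1⟩ := tr ω
  obtain ⟨c2, h2⟩ := tr β
  obtain ⟨c3, h3⟩ := tr (ω * β)
  have f1 := fx (star_one F)
  have f2 := fx sω
  refine ⟨E 1 c0, E ω c1, E β c2, E (ω * β) c3, E 0 1, E 0 ω, ⟨?_, ?_, ?_, ?_, ?_, ?_, ?_, ?_, ?_, ?_, ?_,
    ?_, ?_, ?_, ?_, ?_, ?_⟩, fun h => one_ne_zero (inj (star_one F) h), fun h => ?_, fun h => ?_⟩
  · rw [zz (star_one F) (star_one F), one_add_one_eq_two, two, one]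
  · rw [zz sω sω, ← two_mul, two, zero_mul, one]
  · rw [cm f1 h1 rfl]; simpa using one
  · rw [cm f1 h2 rfl]; simpa using one
  · rw [cm f2 h0 rfl]; simpa using one
  · rw [cm f2 h1 rfl]; simpa using one
  · rw [cm f2 h3 rfl]; simpa using one
  · rw [sq h0, star_one, one_mul]
  · rw [sq h1, zz (star_one F) sω, sω, qω]
  · rw [sq h2, hω]
  · rw [sq h3, star_mul', sω]; congr 1
    linear_combination (ω + 1) * qω - ω * ω * hω + ω * two
  · rw [← one]; exact cm h0 h1 (by rw [sω, star_one]; linear_combination ω * two)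
  · rw [← one]; exact cm h2 h3 (by rw [star_mul', sω]; linear_combination ω * β * star β * two)
  · exact cm h0 h2 (by rw [star_one]; linear_combination hβ)
  · exact cm h0 h3 (by rw [star_one, star_mul', sω]; linear_combination ω * hβ)
  · exact cm h1 h2 (by rw [sω]; linear_combination ω * hβ)
  · rw [zz (star_one F) sω]
    exact cm h1 h3 (by rw [star_mul', sω]; linear_combination ω * ω * hβ + qω)
  · have := inj sω h
    rw [this] at qω; simp at qω
  · have h5 := zz (star_one F) sω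
    rw [← h, zz (star_one F) (star_one F), one_add_one_eq_two, two, one] at h5
    have := inj (by rw [star_add, star_one, sω]) h5.symm
    rw [this, mul_self_eq_zero] at qω
    rw [qω] at this; simp at this

/-- The Sylow 2-subgroups of `PSU₃(4)`. -/
theorem isU34_sylow {F : Type*} [Field F] [Fintype F] (hF : Fintype.card F = 16) (P : Sylow 2 (PSU 3 F 4)) :
    ∃ D : Subgroup (PSU 3 F 4), IsU34 D ∧ Nonempty (D ≃* P) := by
  letI := Cl.starRingOfCard (K := F) (q := 4) hF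
  have hK := Cl.isFq2_starRingOfCard (K := F) (q := 4) hF
  obtain ⟨a0, a1, b0, b1, z0, z1, h, e0, e1, e2⟩ := exists_u34_unitary hK
  have hc := Unit.card_psu hK (n := 3) (by norm_num)
  have hz := Unit.card_center_su hK (n := 3) (by norm_num)
  norm_num [Finset.prod_range_succ] at hc hz
  haveI : Finite (PSU 3 F 4) := Nat.finite_of_card_ne_zero (by omega)
  let f : Unit.SU (Unit.std F (Fin 3)) →* PSU 3 F 4 :=
    (QuotientGroup.mk' _).comp (Unit.suEquiv hK 3).symm.toMonoidHom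
  have hf : Function.Injective f := by
    have : Function.Injective (QuotientGroup.mk' (center (SU 3 F 4))) := by
      rw [← MonoidHom.ker_eq_bot_iff, QuotientGroup.ker_mk', hz]
    exact this.comp (Unit.suEquiv hK 3).symm.injective
  have hD := (h.map f).isU34 (fun e => e0 (hf (e.trans (map_one f).symm)))
    (fun e => e1 (hf (e.trans (map_one f).symm))) (fun e => e2 (hf e))
  haveI : Fact (Nat.Prime 2) := ⟨Nat.prime_two⟩
  refine ⟨_, hD, ?_⟩
  have s : SylowIn 2 _ ⊤ := sylowIn_mk Nat.prime_two le_top (IsPGroup.of_card (n := 6) hD.1) (by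
    have := card_mul_relIndex (le_top : closure {f a0, f a1, f b0, f b1} ≤ ⊤)
    rw [hD.1, card_top] at this
    omega)
  obtain ⟨g, -, e⟩ := s.exists_cj (sylowIn_top P)
  exact ⟨(cjEquiv g _).trans (MulEquiv.subgroupCongr e.symm)⟩

end CA.Alp
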