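/-
Four-groups in groups of 2-rank two; the case of a central four-group.
-/
import Cfsg.Agent.Lib.Alp.Homocyc
import Cfsg.Agent.Lib.Alp.U34
import Cfsg.Agent.Lib.Classical.GroupAux

set_option autoImplicit false
set_option linter.unusedSectionVars false
set_option linter.style.haveILetI false
set_option linter.unusedVariables false

namespace CA.Alp

open Cfsg Subgroup CA CA.Ch CA.Blk
open scoped commutatorElement

variable {G : Type*} [Group G]

/-- `z, t` generate a four-group -/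
structure Four (z t : G) : Prop where
  sz : z * z = 1
  st : t * t = 1
  cm : t * z = z * t
  nz : z ≠ 1
  nt : t ≠ 1
  ne : z ≠ t

/-- membership in the four-group -/
def In4 (z t x : G) : Prop := x = 1 ∨ x = z ∨ x = t ∨ x = z * t

namespace Four
variable {z t : G} (h : Four z t)
include h

theorem zzt : z * (z * t) = t := by rw [← mul_assoc, h.sz, one_mul]
theorem tzt : t * (z * t) = z := by rw [← mul_assoc, h.cm, mul_assoc, h.st, mul_one]
theorem ztz : z * t * z = t := by rw [mul_assoc, h.cm, h.zzt]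
theorem ztt : z * t * t = z := by rw [mul_assoc, h.st, mul_one]
theorem szt : z * t * (z * t) = 1 := by rw [← mul_assoc, h.ztz, h.st]
theorem nzt : z * t ≠ 1 := fun e => h.ne (by rw [← h.zzt, e, mul_one])
theorem ne1 : z * t ≠ z := fun e => h.nt (by simpa using e)
theorem ne2 : z * t ≠ t := fun e => h.nz (by simpa using e)

theorem mul {a b : G} (ha : In4 z t a) (hb : In4 z t b) : In4 z t (a * b) := by
  rcases ha with rfl | rfl | rfl | rfl <;> rcases hb with rfl | rfl | rfl | rfl <;>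
    simp [In4, h.sz, h.st, h.cm, h.zzt, h.tzt, h.ztz, h.ztt, h.szt]

theorem sq {a : G} (ha : In4 z t a) : a * a = 1 := by
  rcases ha with rfl | rfl | rfl | rfl
  exacts [mul_one _, h.sz, h.st, h.szt]

/-- the four-group -/
def sub : Subgroup G where
  carrier := {x | In4 z t x}
  one_mem' := .inl rfl
  mul_mem' := h.mul
  inv_mem' := fun {a} ha => by rwa [inv_eq_of_mul_eq_one_left (h.sq ha)]

theorem sub_le {K : Subgroup G} (h1 : z ∈ K) (h2 : t ∈ K) : h.sub ≤ K := by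
  rintro _ (rfl | rfl | rfl | rfl)
  exacts [one_mem _, h1, h2, mul_mem h1 h2]

theorem sub_cent : h.sub ≤ 𝐂(h.sub) :=
  h.sub_le (cents_symm (h.sub_le (self_mem_cent1 _) (mem_cent1_iff.2 h.cm) |>.trans (cent_zpowers _).ge) (mem_zpowers _))
    (cents_symm (h.sub_le (mem_cent1_iff.2 h.cm.symm) (self_mem_cent1 _) |>.trans (cent_zpowers _).ge) (mem_zpowers _))

theorem in4 [Finite G] (h2 : PRankLE 2 2 G) {x : G} (hx : x * x = 1) (h1 : x * z = z * x) (h3 : x * t = t * x) :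
    In4 z t x := by
  by_contra hn
  have e1 := elem_one_zpowers (p := 2) (H := ⊤) (mem_top z) (by rw [pow_two, h.sz]) h.nz
  have e2 := e1.sup_zpowers (mem_top t) (by rw [pow_two, h.st])
    (fun hm => (mem_zpowers_of_sq h.sz hm).elim h.nt h.ne.symm) (by rw [cent_zpowers]; exact mem_cent1_iff.2 h.cm)
  have e3 := e2.sup_zpowers (mem_top x) (by rw [pow_two, hx]) (fun hm => hn ((sup_le (zpowers_le.2 (.inr (.inl rfl)))
    (zpowers_le.2 (.inr (.inr (.inl rfl)))) : _ ≤ h.sub) hm))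
    (by rw [cent_sup, cent_zpowers, cent_zpowers]; exact ⟨mem_cent1_iff.2 h1, mem_cent1_iff.2 h3⟩)
  have := e3.le_pRank.trans (pRankLE_top_iff.1 h2)
  omega

theorem six {a b : G} (h' : Four a b) (ha : In4 z t a) (hb : In4 z t b) : (a = z ∧ b = t) ∨ (a = z ∧ b = z * t) ∨
    (a = t ∧ b = z) ∨ (a = t ∧ b = z * t) ∨ (a = z * t ∧ b = z) ∨ (a = z * t ∧ b = t) := by
  rcases ha.resolve_left h'.nz with rfl | rfl | rfl <;> rcases hb.resolve_left h'.nt with rfl | rfl | rfl <;>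
    first | exact absurd rfl h'.ne | simp

theorem map {G' : Type*} [Group G'] (f : G ≃* G') : Four (f z) (f t) :=
  ⟨by rw [← map_mul, h.sz, map_one], by rw [← map_mul, h.st, map_one], by rw [← map_mul, h.cm, map_mul],
    by simpa using h.nz, by simpa using h.nt, f.injective.ne h.ne⟩

theorem conj (g : G) : Four (g * z * g⁻¹) (g * t * g⁻¹) := h.map (MulAut.conj g)

end Four

theorem mem_of_pow_mem [Finite G] {p : ℕ} (hp : p.Prime) {K : Subgroup G} {x : G} (h : PiElt {p}ᶜ x)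
    (hx : x ^ p ∈ K) : x ∈ K :=
  zpowers_le.2 hx (mem_zpowers_pow_iff.2 ((hp.coprime_iff_not_dvd).2 fun hd => h p hp hd rfl))

theorem exists_pow_invol {x : G} (h1 : x ≠ 1) {n : ℕ} (h : x ^ 2 ^ n = 1) : ∃ k, x ^ k * x ^ k = 1 ∧ x ^ k ≠ 1 := by
  induction n generalizing x with
  | zero => exact absurd (by simpa using h) h1
  | succ n ih =>
    by_cases t : x ^ 2 = 1
    · exact ⟨1, by rwa [pow_one, ← pow_two], by rwa [pow_one]⟩
    · obtain ⟨k, hk⟩ := ih t (by rw [← pow_mul, ← pow_succ', h])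
      exact ⟨2 * k, by rwa [pow_mul]⟩

theorem Four.exists_rk4 [Finite G] (h2 : PRankLE 2 2 G) {z t : G} (h : Four z t) {T : Subgroup G} (hz : z ∈ T)
    (ht : t ∈ T) (hc : T ≤ 𝐂[z] ⊓ 𝐂[t]) {a b c : G} (ha : a ∈ 𝐍(T)) (hb : b ∈ 𝐍(T)) (hc' : c ∈ 𝐍(T))
    (ma : a * z * a⁻¹ ≠ z) (mb : b * t * b⁻¹ ≠ t) (mc : c * (z * t) * c⁻¹ ≠ z * t) :
    ∃ α, PiElt {3} α ∧ RK4 (MulAut.conj α) T z ∧ α * z * α⁻¹ = t := by
  have inv : ∀ x ∈ T, x * x = 1 → In4 z t x := fun x hx e =>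
    h.in4 h2 e (mem_cent1_iff.1 (hc hx).1) (mem_cent1_iff.1 (hc hx).2)
  have six := fun n (hn : n ∈ 𝐍(T)) => h.six (h.conj n) (inv _ (conj_mem_of_mem_normalizer hn hz) (h.conj n).sz)
    (inv _ (conj_mem_of_mem_normalizer hn ht) (h.conj n).st)
  have cj : ∀ a b x : G, a * b * x * (a * b)⁻¹ = a * (b * x * b⁻¹) * a⁻¹ := fun a b x => by group
  have k2 : ∀ n ∈ 𝐍(T), n * z * n⁻¹ = z * t → n * t * n⁻¹ = z →
      ∃ n ∈ 𝐍(T), n * z * n⁻¹ = t ∧ n * t * n⁻¹ = z * t := fun n hn e1 e2 =>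
    ⟨n * n, mul_mem hn hn, by rw [cj, e1, ← conj_mul, e1, e2, h.ztz], by rw [cj, e2, e1]⟩
  obtain ⟨n, hn, e1, e2⟩ : ∃ n ∈ 𝐍(T), n * z * n⁻¹ = t ∧ n * t * n⁻¹ = z * t := by
    rw [← conj_mul] at mc
    rcases six a ha with e | e | e | e | e | e
    · exact absurd e.1 ma
    · exact absurd e.1 ma
    · rcases six c hc' with f | f | f | f | f | f
      · exact absurd (by rw [f.1, f.2]) mc
      · exact ⟨a * c, mul_mem ha hc', by rw [cj, f.1, e.1], by rw [cj, f.2, ← conj_mul, e.1, e.2, h.cm]⟩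
      · exact absurd (by rw [f.1, f.2, h.cm]) mc
      · exact ⟨c, hc', f⟩
      · exact k2 c hc' f.1 f.2
      · exact k2 _ (mul_mem ha hc') (by rw [cj, f.1, ← conj_mul, e.1, e.2, h.cm]) (by rw [cj, f.2, e.2])
    · exact ⟨a, ha, e⟩
    · exact k2 a ha e.1 e.2
    · rcases six b hb with f | f | f | f | f | f
      · exact absurd f.2 mb
      · exact k2 _ (mul_mem ha hb) (by rw [cj, f.1, e.1]) (by rw [cj, f.2, ← conj_mul, e.1, e.2, h.ztt])
      · exact ⟨a * b, mul_mem ha hb, by rw [cj, f.1, e.2], by rw [cj, f.2, e.1]⟩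
      · exact ⟨b, hb, f⟩
      · exact k2 b hb f.1 f.2
      · exact absurd f.2 mb
  have e3 : n * (z * t) * n⁻¹ = z := by rw [← conj_mul, e1, e2, h.tzt]
  have n3 : n ^ 3 ∈ 𝐂[z] ⊓ 𝐂[t] := by
    rw [pow_three]
    exact ⟨mem_cent1_iff.2 (mul_inv_eq_iff_eq_mul.1 (by rw [cj, cj, e1, e2, e3])),
      mem_cent1_iff.2 (mul_inv_eq_iff_eq_mul.1 (by rw [cj, cj, e2, e3, e1]))⟩
  obtain ⟨α, hα, m, hm, h3, h3', rfl⟩ := exists_pi_decomp {3} n
  have m3 : m ∈ 𝐂[z] ⊓ 𝐂[t] := mem_of_pow_mem Nat.prime_three h3' (by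
    obtain ⟨k, e⟩ := mem_zpowers_iff.1 hm
    have := zpow_mem n3 k
    rwa [← zpow_natCast, ← zpow_mul, mul_comm, zpow_mul, e, zpow_natCast] at this)
  rw [cj, mem_cent1_iff.1 m3.1, mul_inv_cancel_right] at e1
  rw [cj, mem_cent1_iff.1 m3.2, mul_inv_cancel_right] at e2
  exact ⟨α, h3, ⟨mem_normalizer_iff.1 (zpowers_le.2 hn hα), hz, h.nz, h.sz, by
    simp only [MulAut.conj_apply, e1, e2], fun x hx => (mem_cent1_iff.1 (hc hx).1).symm, fun x hx e => by
    simpa only [MulAut.conj_apply, e1, In4] using inv x hx e⟩, e1⟩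

theorem RK4.of_ne {σ : G ≃* G} {T : Subgroup G} {z u : G} (h : RK4 σ T z) (hu : u ∈ T) (h1 : u * u = 1)
    (h2 : u ≠ 1) : RK4 σ T u :=
  have k := h.k4.of_ne (u := ⟨u, hu⟩) (Subtype.ext h1) fun e => h2 (congrArg Subtype.val e)
  ⟨h.nrm, hu, h2, h1, congrArg Subtype.val k.tri, fun x hx => congrArg Subtype.val (k.cen ⟨x, hx⟩),
    fun x hx e => by
      have := k.inv ⟨x, hx⟩ (Subtype.ext e)
      simp only [Subtype.ext_iff] at this
      exact this⟩

theorem RK4.four {σ : G ≃* G} {T : Subgroup G} {z : G} (h : RK4 σ T z) : Four z (σ z) :=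
  ⟨h.sq, congrArg Subtype.val h.k4.sq', congrArg Subtype.val h.k4.m1, h.ne,
    fun e => h.k4.ne' (Subtype.ext e), fun e => h.k4.mv (Subtype.ext e.symm)⟩

section brauer
variable [Finite G] {S : Subgroup G} {α z : G} (h : RK4 (MulAut.conj α) S z) (hS : SylowIn 2 S ⊤)
  (hc : IsMulCommutative S)
include h hS hc

theorem RK4.cent {m u : G} (hm : m ∈ 𝐍(S)) (hu : u ∈ S) (h1 : u * u = 1) (h2 : u ≠ 1) (e : m ∈ 𝐂[u]) :
    m ∈ 𝐂(S) := by
  obtain ⟨a, ha, b, hb, a2, b2, rfl⟩ := exists_pi_decomp {2} m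
  have hp := hS.isPGroup Nat.prime_two
  refine mul_mem (abelian_iff.1 hc (hS.mem_of_mem_norm (zpowers_le.2 hm ha) (mem_top _) a2)) ?_
  replace hm := zpowers_le.2 hm hb
  replace e := mem_cent1_iff.1 (zpowers_le.2 e hb)
  replace h := h.of_ne hu h1 h2
  have f := h.four
  set v := MulAut.conj α u
  have hv : v ∈ S := (h.nrm u).1 hu
  have bu : b * u * b⁻¹ = u := by rw [e, mul_inv_cancel_right]
  have bv : b ∈ 𝐂[v] := mem_of_pow_mem Nat.prime_two b2 (mem_cent1_iff.2 (mul_inv_eq_iff_eq_mul.1 (by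
    rw [show b ^ 2 * v * (b ^ 2)⁻¹ = b * (b * v * b⁻¹) * b⁻¹ by rw [pow_two]; group]
    rcases h.inv _ (conj_mem_of_mem_normalizer hm hv) (f.conj b).st with t | t | t | t
    · exact absurd t (f.conj b).nt
    · exact absurd (bu.trans t.symm) (f.conj b).ne
    · rw [t, t]
    · rw [t, ← conj_mul, bu, t, f.zzt])))
  refine (copAct_zpowers_of_piElt hp hm b2).cents_of_abelian_prime_order hc (fun x hx ho => ?_) (mem_zpowers b)
  obtain ⟨k, hk⟩ := (piElt_singleton_iff Nat.prime_two).1 (hS.piGrp.piElt hx)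
  have o2 : orderOf x = 2 := by rw [hk] at ho ⊢; rw [ho.eq_one_of_pow, pow_one]
  refine cents_symm (zpowers_le.2 ?_) (mem_zpowers x)
  rw [cent_zpowers]
  exact mem_cent1_comm.1 (f.sub_le (K := 𝐂[b]) (mem_cent1_iff.2 e.symm) (mem_cent1_comm.1 bv)
    (h.inv x hx (Inv.mul_self_of_orderOf o2)))

theorem RK4.toHC (h3 : PiElt {3} α) : HC S (res _ S h.nrm) := by
  have hp := hS.isPGroup Nat.prime_two
  have hα : α ∈ 𝐍(S) := mem_normalizer_iff.2 h.nrm
  refine ⟨hc, hp, h.k4.fpf hp, h.cube hp h3, fun x y => ⟨fun e => ?_, ?_⟩, fun x hx => ?_⟩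
  · obtain ⟨g, hg⟩ := isConj_iff.1 e
    obtain ⟨n, ⟨-, hn⟩, e⟩ := hS.exists_norm_conj (mem_top g) (abelian_iff.1 hc x.2)
      (hg ▸ abelian_iff.1 hc y.2)
    rw [hg] at e
    have k : ∀ β ∈ 𝐍(S), n * z * n⁻¹ = β * z * β⁻¹ → (y : G) = β * x * β⁻¹ := fun β hβ t => by
      have := mem_cent_iff.1 (h.cent hS hc (mul_mem (inv_mem hβ) hn) h.mem h.sq h.ne (mem_cent1_iff.2 (by
        rw [← mul_inv_eq_iff_eq_mul, show β⁻¹ * n * z * (β⁻¹ * n)⁻¹ = β⁻¹ * (n * z * n⁻¹) * β by group, t]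
        group))) x x.2
      rw [← e, show n * x * n⁻¹ = β * (β⁻¹ * n * x) * n⁻¹ by group, ← this]; group
    rcases h.inv _ (conj_mem_of_mem_normalizer hn h.mem) (h.four.conj n).sz with t | t | t | t
    · exact absurd t (h.four.conj n).nz
    · exact .inl (Subtype.ext ((k 1 (one_mem _) (by simpa using t)).trans (by simp)))
    · exact .inr (.inl (Subtype.ext (k α hα t)))
    · refine .inr (.inr (Subtype.ext ((k (α * α) (mul_mem hα hα) ?_).trans ?_)))
      · rw [t, ← h.tri]; simp only [MulAut.conj_apply]; group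
      · change _ = α * (α * x * α⁻¹) * α⁻¹; group
  · rintro (rfl | rfl | rfl)
    exacts [IsConj.refl _, isConj_iff.2 ⟨α, rfl⟩, (isConj_iff.2 ⟨α, rfl⟩).trans (isConj_iff.2 ⟨α, rfl⟩)]
  · have s : SylowIn 2 S 𝐂[(x : G)] := hS.of_le ((abelian_iff.1 hc).trans (cent_le_cent1 x.2)) le_top
    obtain ⟨n, hn⟩ := hp x
    obtain ⟨k, h1, h2⟩ := exists_pow_invol hx hn
    have := s.normalPCompl_of_cent fun m hm => h.cent hS hc hm.2 (x ^ k).2 (congrArg Subtype.val h1)
      (fun e => h2 (Subtype.ext e)) (mem_cent1_iff.2 ((Commute.pow_right (mem_cent1_iff.1 hm.1) k).eq))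
    rw [sum_B0_self (hS.piGrp.piElt x.2) this, (this.sdprod s).relIndex_left]

end brauer

/-- the conclusion of Alperin's theorem -/
def Good (T : Type*) [Group T] : Prop :=
  (∃ n : ℕ, 2 ≤ n ∧ Nonempty (T ≃* DihedralGroup n)) ∨ IsQuasiDihedral T ∨ IsWreathed T ∨ IsU34 T

theorem Good.equiv {T T' : Type*} [Group T] [Group T'] (h : Good T) (e : T ≃* T') : Good T' := by
  have c := Nat.card_congr e.toEquiv
  rcases h with ⟨n, h1, ⟨f⟩⟩ | ⟨n, h1, h2, x, y, h3, h4, h5⟩ | ⟨n, h1, h2, x, y, z, h3, h4, h5, h6, h7⟩ |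
    ⟨h1, a0, a1, b0, b1, z0, z1, h, h2, h3, h4⟩
  · exact .inl ⟨n, h1, ⟨e.symm.trans f⟩⟩
  · exact .inr (.inl ⟨n, h1, c ▸ h2, e x, e y, by rwa [e.orderOf_eq], by rwa [e.orderOf_eq], by
      rw [← map_pow, ← h5]; simp⟩)
  · refine .inr (.inr (.inl ⟨n, h1, c ▸ h2, e x, e y, e z, by rwa [e.orderOf_eq], by rw [← map_mul, h4, map_mul], ?_,
      by rwa [e.orderOf_eq], by rw [← h7]; simp⟩))
    have := congrArg (map e.toMonoidHom) h5
    rwa [map_inf _ _ _ e.injective, MonoidHom.map_zpowers, MonoidHom.map_zpowers, Subgroup.map_bot] at this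
  · exact .inr (.inr (.inr ⟨c ▸ h1, _, _, _, _, _, _, h.map e.toMonoidHom, by simpa using h2, by simpa using h3,
      e.injective.ne h4⟩))

theorem good_four {T : Type*} [Group T] {z t : T} (h : Four z t) (hT : ∀ x, In4 z t x) : Good T :=
  .inl ⟨2, le_rfl, Cl.nonempty_equiv_dihedral z t (Inv.orderOf_eq_two h.sz h.nz) h.st
    (by rw [h.cm, h.ztt, Inv.inv_eq_self h.sz]) (fun hm => (mem_zpowers_of_sq h.sz hm).elim h.nt h.ne.symm) fun g => by
      rcases hT g with rfl | rfl | rfl | rfl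
      exacts [.inl (one_mem _), .inl (mem_zpowers _), .inr (h.st ▸ one_mem _), .inr (by rw [h.tzt]; exact mem_zpowers _)]⟩

theorem good_d8 {T : Type*} [Group T] {z u s : T} (h : Four z u) (hs : s * s = 1) (hz : s * z = z * s)
    (hu : s * u = z * u * s) (hT : ∀ x, In4 z u x ∨ In4 z u (s * x)) : Good T := by
  have ss := Inv.mul_mul_cancel hs
  have r2 : u * s * (u * s) = z := by rw [mul_assoc, ← mul_assoc s, hu, mul_assoc _ s, hs, mul_one, h.tzt]
  have o : orderOf (u * s) = 2 ^ 2 := orderOf_eq_prime_pow (by rw [pow_one, pow_two, r2]; exact h.nz)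
    (by rw [show 2 ^ (1 + 1) = 2 * 2 from rfl, pow_mul, pow_two, pow_two, r2, h.sz])
  have i : s * u = (u * s)⁻¹ := by rw [mul_inv_rev, Inv.inv_eq_self hs, Inv.inv_eq_self h.st]
  have m1 : z ∈ zpowers (u * s) := r2 ▸ mul_mem (mem_zpowers _) (mem_zpowers _)
  have m2 : s * u ∈ zpowers (u * s) := i ▸ inv_mem (mem_zpowers _)
  have k : ∀ x, In4 z u x → x ∈ zpowers (u * s) ∨ s * x ∈ zpowers (u * s) := by
    rintro _ (rfl | rfl | rfl | rfl)
    exacts [.inl (one_mem _), .inl m1, .inr m2, .inr (by rw [← mul_assoc, hz, mul_assoc]; exact mul_mem m1 m2)]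
  refine .inl ⟨4, by norm_num, Cl.nonempty_equiv_dihedral (u * s) s o hs (by
    rw [← i, mul_assoc, mul_assoc, hs, mul_one]) (fun hm => h.nz ?_) fun g => (hT g).elim (k g) fun t => ?_⟩
  · have := mem_cent1_iff.1 (zpowers_le.2 (self_mem_cent1 (u * s)) hm)
    rwa [← mul_assoc, hu, mul_left_inj, mul_left_inj, mul_eq_right] at this
  · exact (ss g ▸ k _ t).symm

theorem RK4.good [Finite G] {S : Subgroup G} {α z : G} (h : RK4 (MulAut.conj α) S z) (hS : SylowIn 2 S ⊤)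
    (h3 : PiElt {3} α) (hG : ∀ χ : G → ℂ, IsIrr χ → χ 1 = 1 → χ = 1) : Good S := by
  have hp := hS.isPGroup Nat.prime_two
  have c := h.cube hp h3
  rcases h.k4.dichotomy hp c with a | ⟨a1, a2, a3⟩
  · by_cases t : ∀ x : S, x * x = 1
    · exact good_four (RK4.four ⟨fun _ => ⟨fun _ => mem_top _, fun _ => mem_top _⟩, mem_top _, h.k4.ne, h.k4.sq,
        h.k4.tri, fun x _ => h.k4.cen x, fun x _ => h.k4.inv x⟩) fun x => h.k4.inv x (t x)
    push Not at t
    obtain ⟨g, hg⟩ := t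
    obtain ⟨y, n, -, -, -, -, h1, h2⟩ := homocyclic a hp h.k4.ncard.le (res _ S h.nrm).toMonoidHom (h.k4.prod hp c)
    have n2 : 2 ≤ n := by
      by_contra hn
      have := h2 g
      rcases (by omega : n = 0 ∨ n = 1) with rfl | rfl
      exacts [hg (by rw [show g = 1 by simpa using this, one_mul]), hg (by simpa [pow_two] using this)]
    exact ((h.toHC hS ⟨⟨a⟩⟩ h3).false hG (h1 ▸ Nat.pow_le_pow_right (n := 4) (by norm_num) n2) h.k4.sq h.k4.ne hg).elim
  · exact .inr (.inr (.inr (h.k4.isU34 hp c a2 a1 a3)))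

theorem card_le_two_mul [Finite G] {K H : Subgroup G} (h : ∀ a ∈ H, ∀ b ∈ H, a ∈ K ∨ b ∈ K ∨ a * b ∈ K) :
    Nat.card H ≤ 2 * Nat.card K := by
  have : K.relIndex H ∣ 2 := by
    refine index_dvd_two_iff.2 ?_
    by_cases t : ∀ a : H, a ∈ K.subgroupOf H
    · exact ⟨1, fun b => .inr (t b)⟩
    · push Not at t
      obtain ⟨a, ha⟩ := t
      exact ⟨a, fun b => (h b b.2 a a.2).elim .inr fun t => .inl (t.resolve_left ha)⟩
  rw [← card_inf_mul_relIndex K H, mul_comm]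
  exact Nat.mul_le_mul (Nat.le_of_dvd two_pos this) (card_le_of_le inf_le_left)

/-- The group of order 64 has no suitable automorphism whose square is inner. -/
theorem K4.no_ext {T : Type*} [Group T] [Finite T] {σ : T ≃* T} {z : T} (h : K4 σ z) (hp : IsPGroup 2 T)
    (h3 : ∀ x, σ (σ (σ x)) = x) (h4 : ∀ x : T, x * x * (x * x) = 1) (hc : Nat.card T = 64) (τ : T ≃* T) {c : T}
    (hτ : ∀ x, τ (τ x) = c * x * c⁻¹) (h1 : τ z = z) (h2 : τ (σ z) ≠ σ z) : False := by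
  let K : Subgroup T :=
    { carrier := {x | x * x = 1}
      one_mem' := mul_one 1
      mul_mem' := h.sq_mul
      inv_mem' := fun {a} ha => by change _ = 1; rw [← mul_inv_rev, show a * a = 1 from ha, inv_one] }
  haveI : K.Normal := ⟨fun n hn g => by rwa [← h.cen_of_sq hn, mul_inv_cancel_right]⟩
  have cK : Nat.card K = 4 := h.ncard
  let π := QuotientGroup.mk' K
  have πK : ∀ x, π x = 1 ↔ x ∈ K := fun x => QuotientGroup.eq_one_iff x
  have cm : ∀ a b, π a * π b = π b * π a := fun a b => commutatorElement_eq_one_iff_mul_comm.1 (by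
    rw [← map_commutatorElement, πK]; exact h.cm_sq hp h3 h4 a b)
  have sq : ∀ a, π a * π a = 1 := fun a => by rw [← map_mul, πK]; exact h4 a
  let F := MonoidHom.eqLocus (π.comp τ.toMonoidHom) π
  have mF : ∀ x, x ∈ F ↔ π (τ x) = π x := fun x => Iff.rfl
  have f1 : ∀ a ∈ F, a ∉ K → a * a = z := fun a ha hK => by
    have e : a⁻¹ * τ a ∈ K := by rw [← πK, map_mul, (mF a).1 ha, ← map_mul, inv_mul_cancel, map_one]
    have e' : τ (a * a) = a * a := by
      rw [map_mul, ← mul_inv_cancel_left a (τ a)]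
      generalize a⁻¹ * τ a = v at e
      rw [mul_assoc a, h.cen_of_sq e, mul_assoc a v, show v * v = 1 from e, mul_one]
    rcases h.inv _ (h4 a) with t | t | t | t
    exacts [absurd t hK, t, absurd (t ▸ e') h2, absurd (by rwa [t, map_mul, h1, mul_right_inj] at e') h2]
  have f2 : ∀ a ∈ F, ∀ b ∈ F, a ∈ K ∨ b ∈ K ∨ a * b ∈ K := fun a ha b hb => by
    by_contra hn
    simp only [not_or] at hn
    have := f1 _ (mul_mem ha hb) hn.2.2
    rw [mul_sq (h.cl2 hp h3) a b, f1 a ha hn.1, f1 b hb hn.2.1, h.sq, one_mul] at this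
    exact h.sq_ne hp h3 h4 (f1 b hb hn.2.1) this (f1 a ha hn.1)
  have f3 : Nat.card (⊤ : Subgroup T) ≤ 2 * Nat.card F := card_le_two_mul fun a _ b _ => by
    have m : ∀ x, x * τ x ∈ F := fun x => by
      rw [mF, map_mul, map_mul, map_mul, hτ, map_mul, map_mul, cm c, map_inv, mul_inv_cancel_right, cm]
    have k : ∀ x, π x * π (τ x) = 1 → x ∈ F := fun x e => by
      rw [mF, ← mul_right_inj (π x), e, sq]
    refine (f2 _ (m a) _ (m b)).imp (fun t => k a (by rwa [← map_mul, πK]))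
      (Or.imp (fun t => k b (by rwa [← map_mul, πK])) fun t => k _ ?_)
    rw [← πK] at t
    simp only [map_mul, mul_assoc] at t ⊢
    rw [← mul_assoc (π b), cm b, mul_assoc, t]
  have := card_le_two_mul f2
  rw [card_top] at f3
  omega

end CA.Alp
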