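/-
Alperin's theorem on the Sylow 2-subgroups of simple groups of 2-rank two.
-/
import Cfsg.Agent.Lib.Alp.Four
import Cfsg.Agent.Lib.Two.CycNormal
import Cfsg.Agent.Lib.Classical.Quat
import Cfsg.Agent.Lib.XS.TwoCls
import Cfsg.Agent.Lib.PF.FT

set_option autoImplicit false
set_option linter.unusedSectionVars false
set_option linter.style.haveILetI false
set_option linter.unusedVariables false

namespace CA.Alp

open Cfsg Subgroup CA CA.Ch CA.Blk
open scoped commutatorElement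

variable {G : Type*} [Group G] [Finite G] {S : Subgroup G}

theorem exists_conj_in (hI : ∀ t : G, t ≠ 1 → ¬ Isol t) (hS : SylowIn 2 S ⊤) {t : G} (ht : t ∈ S) (h1 : t * t = 1)
    (h2 : t ≠ 1) : ∃ g, g * t * g⁻¹ ∈ S ∧ g * t * g⁻¹ ≠ t := by
  by_contra hn
  push Not at hn
  exact hI t h2 ((isol_of_sylow hS ht h1 fun g _ => hn g).map (⊤ : Subgroup G).subtype fun x => ⟨⟨x, mem_top _⟩, rfl⟩)

/-- the wreathed case -/
theorem good_wreath {R : Subgroup G} {α z t s : G} (h : RK4 (MulAut.conj α) R z) (hα : α * z * α⁻¹ = t)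
    (hp : IsPGroup 2 R) (h3 : PiElt {3} α) (hR : R ≤ S) (hs : s ∈ S) (hn : s ∈ 𝐍(R)) (hz : S ≤ 𝐂[z])
    (e : s * t * s⁻¹ = z * t) (dich : ∀ s ∈ S, s * t * s⁻¹ = z * t → ∀ g ∈ S, g ∈ R ∨ s * g ∈ R) : Good S := by
  subst hα
  have k := h.k4
  have f := h.four
  have c := h.cube hp h3
  have tR : α * z * α⁻¹ ∈ R := (h.nrm z).1 h.mem
  have sR : ∀ s, s * (α * z * α⁻¹) * s⁻¹ = z * (α * z * α⁻¹) → s ∉ R := fun s e hs => f.ne2 (e.symm.trans
    (mul_inv_eq_iff_eq_mul.2 (congrArg Subtype.val (k.cen' ⟨s, hs⟩).symm)))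
  have s2 : s * s ∈ R := (dich s hs e s hs).resolve_left (sR s e)
  let τ := res (MulAut.conj s) R (mem_normalizer_iff.1 hn)
  have τe : ∀ x, (τ x : G) = s * x * s⁻¹ := fun x => rfl
  have ττ : ∀ x, τ (τ x) = ⟨_, s2⟩ * x * ⟨_, s2⟩⁻¹ := fun x => Subtype.ext (by
    simp only [τe, coe_mul, coe_inv]; group)
  have τz : τ ⟨z, h.mem⟩ = ⟨z, h.mem⟩ := Subtype.ext (by rw [τe, mem_cent1_iff.1 (hz hs), mul_inv_cancel_right])
  have τt : τ (res _ R h.nrm ⟨z, h.mem⟩) ≠ res _ R h.nrm ⟨z, h.mem⟩ := fun t =>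
    f.ne2 (e.symm.trans (congrArg Subtype.val t))
  rcases k.dichotomy hp c with a | ⟨a1, a2, -⟩
  swap
  · exact (k.no_ext hp c a2 a1 τ ττ τz τt).elim
  obtain ⟨y, n, o1, o2, -, -, h1, h2⟩ := homocyclic a hp k.ncard.le (res _ R h.nrm).toMonoidHom (k.prod hp c)
  obtain _ | m := n
  · exact absurd (by simpa only [pow_zero, pow_one] using h2 _) k.ne
  have iv : ∀ {x : R}, orderOf x = 2 ^ (m + 1) → x ^ 2 ^ m * x ^ 2 ^ m = 1 ∧ x ^ 2 ^ m ≠ 1 := fun {x} o =>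
    ⟨by rw [← pow_two, ← pow_mul, ← pow_succ, h2], pow_ne_one_of_lt_orderOf (by positivity)
      (o ▸ Nat.pow_lt_pow_right one_lt_two (Nat.lt_succ_self m))⟩
  obtain ⟨x, ox, xz⟩ : ∃ x : R, orderOf x = 2 ^ (m + 1) ∧ x ^ 2 ^ m ≠ ⟨z, h.mem⟩ := by
    by_cases t : y ^ 2 ^ m = ⟨z, h.mem⟩
    · exact ⟨_, o2, by rw [← map_pow, t]; exact k.mv⟩
    · exact ⟨y, o1, t⟩
  have ox' : orderOf (τ x) = 2 ^ (m + 1) := by rw [τ.orderOf_eq, ox]
  have bot := zpowers_inf_eq_bot ox ox' (by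
    rw [← map_pow]
    rcases k.inv _ (iv ox).1 with t | t | t | t
    exacts [absurd t (iv ox).2, absurd t xz, t ▸ τt.symm, by rw [t, map_mul, τz]; simpa using τt.symm])
  obtain ⟨top, -⟩ := sup_zpowers_eq_top ox ox' (a _ _) bot h1.le
  obtain ⟨p, hp', q, hq, e1⟩ := (mem_sup_of_norm_right (zpowers_le.2 (norms_zpowers_of_cent1 le_rfl
    (mem_cent1_iff.2 (a _ _))))).1 (top ▸ mem_top (⟨_, s2⟩ : R))
  have τ2 : ∀ x, τ (τ x) = x := fun x => by rw [ττ, a _ x, mul_inv_cancel_right]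
  have e2 : q = τ p := by
    have t : τ (p * q) = p * q := by rw [e1]; exact Subtype.ext (by rw [τe]; group)
    have m1 : τ q ∈ zpowers x := by obtain ⟨i, rfl⟩ := hq; exact ⟨i, by simp only [map_zpow, τ2]⟩
    have m2 : τ p ∈ zpowers (τ x) := by obtain ⟨i, rfl⟩ := hp'; exact ⟨i, by simp only [map_zpow]⟩
    have : q * (τ p)⁻¹ ∈ zpowers x ⊓ zpowers (τ x) := ⟨by
      rw [show q * (τ p)⁻¹ = p⁻¹ * τ q by
        rw [mul_inv_eq_iff_eq_mul, mul_assoc, a (τ q), ← map_mul, t, inv_mul_cancel_left]]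
      exact (zpowers x).mul_mem ((zpowers x).inv_mem hp') m1, (zpowers _).mul_mem hq ((zpowers _).inv_mem m2)⟩
    rwa [bot, mem_bot, mul_inv_eq_one] at this
  have w1 : s * (p : G)⁻¹ ∈ S := mul_mem hs (inv_mem (hR p.2))
  have w2 : ∀ x : R, s * (p : G)⁻¹ * x * (s * (p : G)⁻¹)⁻¹ = τ x := fun x => by
    rw [τe, mul_assoc s, show (p : G)⁻¹ * x = x * (p : G)⁻¹ from congrArg Subtype.val (a p⁻¹ x)]; group
  have w3 : s * (p : G)⁻¹ * (s * (p : G)⁻¹) = 1 := by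
    have t : ((τ p)⁻¹ * (p * τ p) * p⁻¹ : R) = 1 := by rw [a p]; simp
    rw [← e2, e1, e2] at t
    rw [← show _ = (1 : G) from congrArg Subtype.val t]
    simp only [τe, coe_mul, coe_inv]; group
  have w4 := (w2 ⟨_, tR⟩).trans e
  generalize s * (p : G)⁻¹ = w at w1 w2 w3 w4
  obtain _ | m := m
  · refine good_d8 (z := ⟨z, hR h.mem⟩) (u := ⟨_, hR tR⟩) (s := ⟨w, w1⟩) ⟨Subtype.ext f.sz, Subtype.ext f.st,
      Subtype.ext f.cm, fun t => f.nz (congrArg Subtype.val t), fun t => f.nt (congrArg Subtype.val t),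
      fun t => f.ne (congrArg Subtype.val t)⟩ (Subtype.ext w3) (Subtype.ext (mem_cent1_iff.1 (hz w1)))
      (Subtype.ext (mul_inv_eq_iff_eq_mul.1 w4)) fun g => ?_
    have i : ∀ g : S, (g : G) ∈ R → In4 (⟨z, hR h.mem⟩ : S) ⟨_, hR tR⟩ g := fun g hg => by
      simp only [In4, Subtype.ext_iff]
      exact h.inv g hg (congrArg Subtype.val ((pow_two _).symm.trans (h2 ⟨g, hg⟩)))
    exact (dich w w1 w4 g g.2).imp (i _) (i _)
  haveI : Fact (Nat.Prime 2) := ⟨Nat.prime_two⟩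
  have wn : w ∈ 𝐍(R) := mem_normalizer_of_cj_le (cj_le_iff'.2 fun x hx => w2 ⟨x, hx⟩ ▸ (τ _).2)
  have eS : R ⊔ zpowers w = S := le_antisymm (sup_le hR (zpowers_le.2 w1)) fun g hg =>
    (dich w w1 w4 g hg).elim mem_sup_left fun t => (mul_mem_cancel_left (mem_sup_right (mem_zpowers w))).1
      (mem_sup_left t)
  have inj := inclusion_injective hR
  refine .inr (.inr (.inl ⟨m + 2, by omega, ?_, inclusion hR x, inclusion hR (τ x), ⟨w, w1⟩,
    by rw [orderOf_injective _ inj, ox], by rw [← map_mul, a, map_mul], ?_, Inv.orderOf_eq_two (Subtype.ext w3)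
      fun t => sR w w4 (by rw [show w = 1 from congrArg Subtype.val t]; exact one_mem _), Subtype.ext (w2 x)⟩))
  · rw [← eS, card_sup_zpowers wn (sR w w4) (by rw [pow_two, w3]; exact one_mem _), h1, pow_succ 2, pow_mul]; rfl
  · rw [← MonoidHom.map_zpowers, ← MonoidHom.map_zpowers, ← map_inf _ _ _ inj, bot, Subgroup.map_bot]

variable (h2 : PRankLE 2 2 G) (hI : ∀ t : G, t ≠ 1 → ¬ Isol t) (hG : ∀ χ : G → ℂ, IsIrr χ → χ 1 = 1 → χ = 1)
  (hS : SylowIn 2 S ⊤)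
include h2 hI hG hS

theorem good_central {z t : G} (h : Four z t) (hz : z ∈ S) (ht : t ∈ S) (hc : S ≤ 𝐂[z] ⊓ 𝐂[t]) : Good S := by
  have k : ∀ u ∈ h.sub, u ≠ 1 → ∃ n ∈ 𝐍(S), n * u * n⁻¹ ≠ u := fun u hu h1 => by
    have c : h.sub ≤ 𝐂(S) := h.sub_le (mem_cent_iff_le_cent1.2 (hc.trans inf_le_left))
      (mem_cent_iff_le_cent1.2 (hc.trans inf_le_right))
    obtain ⟨g, g1, g2⟩ := exists_conj_in hI hS (h.sub_le hz ht hu) (h.sq hu) h1
    obtain ⟨n, hn, e⟩ := hS.exists_norm_conj (mem_top g) (c hu) (c (h.in4 h2 (by rw [conj_mul, h.sq hu]; simp)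
      (mem_cent1_iff.1 (hc g1).1) (mem_cent1_iff.1 (hc g1).2)))
    exact ⟨n, hn.2, e ▸ g2⟩
  obtain ⟨a, ha, ma⟩ := k z (.inr (.inl rfl)) h.nz
  obtain ⟨b, hb, mb⟩ := k t (.inr (.inr (.inl rfl))) h.nt
  obtain ⟨c, hc', mc⟩ := k _ (.inr (.inr (.inr rfl))) h.nzt
  obtain ⟨α, h3, r, -⟩ := h.exists_rk4 h2 hz ht hc ha hb hc' ma mb mc
  exact r.good hS h3 hG

theorem good_normal {z u : G} (h : Four z u) (hz : z ∈ S) (hu : u ∈ S) (cz : S ≤ 𝐂[z])
    (hn : ∀ g ∈ S, g * u * g⁻¹ = u ∨ g * u * g⁻¹ = z * u) : Good S := by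
  have hp := hS.isPGroup Nat.prime_two
  have gz : ∀ g ∈ S, g * z * g⁻¹ = z := fun g hg => by rw [mem_cent1_iff.1 (cz hg), mul_inv_cancel_right]
  have sz : SylowIn 2 S 𝐂[z] := hS.of_le cz le_top
  obtain ⟨t, R, f, ⟨g, hg⟩, hR, RS⟩ : ∃ t R, Four z t ∧ (∃ g, g * z * g⁻¹ = t) ∧ SylowIn 2 R (𝐂[z] ⊓ 𝐂[t]) ∧
      R ≤ S := by
    obtain ⟨g, g1, g2⟩ := exists_conj_in hI hS hz h.sz h.nz
    obtain ⟨R, hR⟩ := exists_sylowIn 2 (𝐂[z] ⊓ 𝐂[g * z * g⁻¹])
    obtain ⟨c, hc, e⟩ := sz.exists_cj_le hR.piGrp (hR.le.trans inf_le_left)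
    have f : Four z (g * z * g⁻¹) := ⟨h.sz, (h.conj g).sz, mem_cent1_iff.1 (cz g1), h.nz, (h.conj g).nz, g2.symm⟩
    have cz' : c * z * c⁻¹ = z := by rw [mem_cent1_iff.1 hc, mul_inv_cancel_right]
    have := hR.cj c
    rw [cj_inf, cj_centralizer_singleton, cj_centralizer_singleton, cz'] at this
    have f' := f.conj c
    rw [cz'] at f'
    exact ⟨_, _, f', ⟨c * g, by group⟩, this, e⟩
  have RC := hR.le
  have mR : ∀ v ∈ f.sub, v ∈ R := fun v hv => by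
    have c : f.sub ≤ 𝐂(R) := f.sub_le (mem_cent_iff_le_cent1.2 (RC.trans inf_le_left))
      (mem_cent_iff_le_cent1.2 (RC.trans inf_le_right))
    exact hR.mem_of_mem_norm (centralizer_le_normalizer _ (c hv)) (f.sub_le (K := 𝐂[z] ⊓ 𝐂[t])
      ⟨self_mem_cent1 _, mem_cent1_iff.2 f.cm.symm⟩ ⟨mem_cent1_iff.2 f.cm, self_mem_cent1 _⟩ hv)
      (piElt_two_of_sq (f.sq hv))
  have zR := mR z (.inr (.inl rfl))
  have tR := mR t (.inr (.inr (.inl rfl)))
  have eR : S ⊓ 𝐂[t] = R := hR.eq_of_le (le_inf RS (RC.trans inf_le_right)) (inf_le_inf_right _ cz)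
    (hS.piGrp.of_le inf_le_left)
  by_cases e : R = S
  · exact good_central h2 hI hG hS f hz (RS tR) (e ▸ RC)
  have lt := lt_of_le_of_ne RS e
  obtain ⟨s, ⟨hs, sn⟩, sR⟩ := SetLike.exists_of_lt (lt_inf_normalizer_pgroup hp lt)
  have st' : s * t * s⁻¹ ≠ t := fun e => sR (eR ▸ ⟨hs, mem_cent1_iff.2 (mul_inv_eq_iff_eq_mul.1 e)⟩)
  obtain ⟨S', hS', RS'⟩ := exists_sylowIn_ge hR.piGrp (RC.trans inf_le_right)
  have c' : Nat.card S' = Nat.card S := by
    have := sz.cj g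
    rw [cj_centralizer_singleton, hg] at this
    obtain ⟨c, -, rfl⟩ := SylowIn.exists_cj this hS'
    rw [card_cj, card_cj]
  obtain ⟨s', ⟨hs', sn'⟩, sR'⟩ := SetLike.exists_of_lt (lt_inf_normalizer_pgroup (hS'.isPGroup Nat.prime_two)
    (lt_of_le_of_ne RS' fun t => e (eq_of_le_of_card_eq RS (t ▸ c'))))
  have sz' : s' * z * s'⁻¹ ≠ z := fun e => sR' (hR.eq_of_le (K := S' ⊓ 𝐂[z]) (le_inf RS' (RC.trans inf_le_left))
    (fun x hx => ⟨hx.2, hS'.le hx.1⟩) (hS'.piGrp.of_le inf_le_left) ▸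
      ⟨hs', mem_cent1_iff.2 (mul_inv_eq_iff_eq_mul.1 e)⟩)
  obtain ⟨α, h3, r, hα⟩ := f.exists_rk4 h2 zR tR RC sn' sn sn sz' st' (by rw [← conj_mul, gz s hs]; simpa using st')
  have inv : ∀ x ∈ R, x * x = 1 → In4 z t x := fun x hx e => hα ▸ r.inv x hx e
  by_cases c : t * u = u * t
  · have st : s * t * s⁻¹ = z * t := by
      rcases inv _ (conj_mem_of_mem_normalizer sn tR) (f.conj s).st with e | e | e | e
      exacts [absurd e (f.conj s).nt, absurd ((gz s hs).trans e.symm) (f.conj s).ne, absurd e st', e]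
    refine good_wreath r hα (hp.to_le RS) h3 RS hs sn cz st fun s hs st g hg => ?_
    have : g * t * g⁻¹ = t ∨ g * t * g⁻¹ = z * t := by
      rcases h.in4 h2 f.st f.cm c with e | e | e | e
      exacts [absurd e f.nt, absurd e.symm f.ne, e ▸ hn g hg, by
        rw [e, ← conj_mul, gz g hg]; exact (hn g hg).imp (fun e => by rw [e]) fun e => by rw [e]]
    refine this.imp (fun e => eR ▸ ⟨hg, mem_cent1_iff.2 (mul_inv_eq_iff_eq_mul.1 e)⟩) fun e =>
      eR ▸ ⟨mul_mem hs hg, mem_cent1_iff.2 (mul_inv_eq_iff_eq_mul.1 ?_)⟩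
    rw [show s * g * t * (s * g)⁻¹ = s * (g * t * g⁻¹) * s⁻¹ by group, e, ← conj_mul, gz s hs, st, f.zzt]
  have sq : ∀ y ∈ S, y * y ∈ 𝐂[u] := fun y hy => mem_cent1_iff.2 (mul_inv_eq_iff_eq_mul.1 (by
    rw [show y * y * u * (y * y)⁻¹ = y * (y * u * y⁻¹) * y⁻¹ by group]
    rcases hn y hy with e | e
    exacts [by rw [e, e], by rw [e, ← conj_mul, gz y hy, e, h.zzt]]))
  have zu : z ∈ 𝐂[u] := mem_cent1_iff.2 h.cm.symm
  have i4 : ∀ x ∈ R, In4 z t x := fun x hx => inv x hx (by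
    by_contra hx'
    obtain ⟨n, hn⟩ := hp ⟨x * x, RS (mul_mem hx hx)⟩
    obtain ⟨k, k1, k2⟩ := exists_pow_invol hx' (congrArg Subtype.val hn)
    rw [(Commute.refl x).mul_pow] at k1 k2
    have m := pow_mem hx k
    generalize x ^ k = y at k1 k2 m
    rcases inv _ (mul_mem m m) k1 with e | e | e | e
    · exact k2 e
    · have := sq _ (RS ((r.nrm y).1 m))
      rw [← map_mul, e, MulAut.conj_apply, hα] at this
      exact c (mem_cent1_iff.1 this)
    · exact c (mem_cent1_iff.1 (e ▸ sq y (RS m)))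
    · exact c (mem_cent1_iff.1 ((mul_mem_cancel_left zu).1 (e ▸ sq y (RS m)))))
  have tS := RS tR
  have tu : t * u = z * u * t := mul_inv_eq_iff_eq_mul.1 ((hn t tS).resolve_left fun e =>
    c (mul_inv_eq_iff_eq_mul.1 e))
  have k : ∀ w ∈ S, w ∈ 𝐂[t] → w ∈ 𝐂[u] → w = 1 ∨ w = z := fun w hw a b => by
    rcases i4 w (eR ▸ ⟨hw, a⟩) with e | e | e | e
    exacts [.inl e, .inr e, absurd (mem_cent1_iff.1 (e ▸ b)) c,
      absurd (mem_cent1_iff.1 ((mul_mem_cancel_left zu).1 (e ▸ b))) c]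
  have z4 : z ∈ h.sub := .inr (.inl rfl)
  have u4 : u ∈ h.sub := .inr (.inr (.inl rfl))
  have US : h.sub ≤ S := h.sub_le hz hu
  have nU : S ≤ 𝐍(h.sub) := fun g hg => mem_normalizer_of_cj_le (cj_le_iff.2 (h.sub_le
    (mem_cj_inv.2 (by rw [gz g hg]; exact z4)) (mem_cj_inv.2 (.inr (.inr (hn g hg))))))
  have WU : S ⊓ 𝐂(h.sub) ≤ h.sub := by
    by_contra hn
    obtain ⟨x, ⟨xS, xC⟩, x1, -, x2⟩ := exists_central_mod hp (hp.to_le inf_le_left)
      (norms_inf le_normalizer (norms_cent nU)) nU (inf_le_left.trans nU) hn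
    have v := x2 t tS
    have xu := cent_le_cent1 u4 xC
    have vt : ⁅x, t⁆ ∈ 𝐂[t] := mem_cent1_iff.2 (by
      have := h.sq v
      rw [mul_eq_one_iff_eq_inv, commutatorElement_inv] at this
      nth_rewrite 1 [this]
      simp only [commutatorElement_def, Inv.inv_eq_self f.st, mul_assoc, f.st, mul_one])
    rcases k _ (US v) vt (cent_le_cent1 u4 (h.sub_cent v)) with e | e
    · rcases k x xS (mem_cent1_iff.2 (commutatorElement_eq_one_iff_mul_comm.1 e)) xu with e | e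
      exacts [x1 (e ▸ one_mem _), x1 (e ▸ z4)]
    · rw [commutatorElement_def, mul_inv_eq_iff_eq_mul, mul_inv_eq_iff_eq_mul] at e
      have : x * u ∈ h.sub := by
        rcases k _ (mul_mem xS hu) (mem_cent1_iff.2 (by
          rw [mem_cent1_iff.1 xu, mul_assoc, e, ← mul_assoc, ← mul_assoc, h.cm, ← tu, mul_assoc])) (mul_mem xu
          (self_mem_cent1 u)) with e | e
        exacts [e ▸ one_mem _, e ▸ z4]
      exact x1 ((mul_mem_cancel_right u4).1 this)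
  have i : ∀ g : S, g * u * (g : G)⁻¹ = u → In4 (⟨z, hz⟩ : S) ⟨u, hu⟩ g := fun g e => by
    simp only [In4, Subtype.ext_iff]
    exact WU ⟨g.2, mem_cent_iff_le_cent1.2 (h.sub_le (mem_cent1_comm.1 (cz g.2))
      (mem_cent1_iff.2 (mul_inv_eq_iff_eq_mul.1 e).symm))⟩
  refine good_d8 (z := ⟨z, hz⟩) (u := ⟨u, hu⟩) (s := ⟨t, tS⟩) ⟨Subtype.ext h.sz, Subtype.ext h.st,
    Subtype.ext h.cm, fun e => h.nz (congrArg Subtype.val e), fun e => h.nt (congrArg Subtype.val e),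
    fun e => h.ne (congrArg Subtype.val e)⟩ (Subtype.ext f.st) (Subtype.ext f.cm) (Subtype.ext tu) fun g =>
      (hn g g.2).imp (i g) fun e => i _ ?_
  rw [coe_mul, show t * g * u * (t * g)⁻¹ = t * (g * u * (g : G)⁻¹) * t⁻¹ by group, e, ← conj_mul, gz t tS, tu,
    mul_inv_cancel_right, h.zzt]

theorem good_sylow (h0 : S ≠ ⊥) : Good S := by
  have hp := hS.isPGroup Nat.prime_two
  have inv : ∀ A ≤ S, S ≤ 𝐍(A) → A ≠ ⊥ → ∃ z ∈ A, z * z = 1 ∧ z ≠ 1 ∧ S ≤ 𝐂[z] := fun A h1 h3 h4 => by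
    obtain ⟨⟨x, hx, hx'⟩, x1⟩ := ne_bot_iff_exists_ne_one.1 (meet_center_pgroup hp h1 h3 h4)
    obtain ⟨n, hn⟩ := hp ⟨x, h1 hx⟩
    obtain ⟨k, k1, k2⟩ := exists_pow_invol (fun e => x1 (Subtype.ext e)) (congrArg Subtype.val hn)
    exact ⟨_, pow_mem hx k, k1, k2, mem_cent_iff_le_cent1.1 (pow_mem hx'.2 k)⟩
  by_cases hn : ∀ A : Subgroup S, A.Normal → IsMulCommutative A → IsCyclic A
  · obtain ⟨z, hz, z2, z1, -⟩ := inv S le_rfl le_normalizer h0
    obtain ⟨g, g1, g2⟩ := exists_conj_in hI hS hz z2 z1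
    have key : ∀ {K : Type _} [Group K] (e : S ≃* K) (w : K), (∀ a : K, a * a = 1 → a = 1 ∨ a = w) → False :=
      fun e w hw => g2 (congrArg Subtype.val (e.injective (a₁ := ⟨_, g1⟩) (a₂ := ⟨z, hz⟩)
        (((hw _ (by rw [← map_mul, e.map_eq_one_iff]; exact Subtype.ext (by simp [z2]))).resolve_left
          (by simpa [Subtype.ext_iff] using z1)).trans ((hw _ (by
            rw [← map_mul, e.map_eq_one_iff]; exact Subtype.ext z2)).resolve_left
              (by simpa [Subtype.ext_iff] using z1)).symm)))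
    rcases Two.classify hp hn (fun hc => by
      obtain ⟨x, hx⟩ := hc.exists_generator
      exact g2 (congrArg Subtype.val (XS.invol_unique (hx ⟨_, g1⟩) (hx ⟨z, hz⟩)
        (Inv.orderOf_eq_two (Subtype.ext (by simp [z2])) (by simpa [Subtype.ext_iff] using z1))
        (Inv.orderOf_eq_two (Subtype.ext z2) (by simpa [Subtype.ext_iff] using z1)))))
      with ⟨n, -, ⟨e⟩⟩ | ⟨n, h1, e⟩ | e
    · refine (key e (.a (2 ^ n : ℕ)) ?_).elim
      rintro (i | i) hi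
      · rcases Quat.eq_of_sq_eq_one (QuaternionGroup.a.inj hi) with rfl | rfl
        exacts [.inl rfl, .inr rfl]
      · have := orderOf_dvd_of_pow_eq_one ((pow_two _).trans hi)
        rw [QuaternionGroup.orderOf_xa] at this
        omega
    · exact .inl ⟨_, (Nat.pow_le_pow_right two_pos h1).trans' (by norm_num), e⟩
    · exact .inr (.inl e)
  push Not at hn
  obtain ⟨A, hA, hc, hA'⟩ := hn
  have e := A.equivMapOfInjective _ S.subtype_injective
  have le : A.map S.subtype ≤ S := map_subtype_le A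
  have nA : S ≤ 𝐍(A.map S.subtype) := fun g hg => mem_normalizer_of_cj_le (cj_le_iff'.2 (by
    rintro _ ⟨x, hx, rfl⟩; exact ⟨_, hA.conj_mem x hx ⟨g, hg⟩, rfl⟩))
  have hc' : IsMulCommutative (A.map S.subtype) := inferInstance
  have nc : ¬ IsCyclic (A.map S.subtype) := fun t => hA' (isCyclic_of_surjective e.symm e.symm.surjective)
  generalize A.map S.subtype = B at le nA hc' nc
  obtain ⟨z, hz, z2, z1, cz⟩ := inv B le nA (by rintro rfl; exact nc inferInstance)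
  obtain ⟨E, hE⟩ := le_pRank_iff.1 (two_le_pRank_of_abelian (hp.to_le le) hc' nc)
  obtain ⟨u, hu, u1⟩ : ∃ u ∈ E, u ∉ zpowers z := by
    by_contra hn
    push Not at hn
    exact hE.not_isCyclic le_rfl (Subgroup.isCyclic_of_le (H' := zpowers z) hn)
  have cm := abelian_iff'.1 hc'
  have f : Four z u := ⟨z2, by rw [← pow_two, hE.elemAb.2 u hu], cm _ (hE.le hu) _ hz, z1,
    fun e => u1 (e ▸ one_mem _), fun e => u1 (e ▸ mem_zpowers _)⟩
  refine good_normal h2 hI hG hS f (le hz) (le (hE.le hu)) cz fun g hg => ?_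
  have m := conj_mem_of_mem_normalizer (nA hg) (hE.le hu)
  rcases f.in4 h2 (f.conj g).st (cm _ m _ hz) (cm _ m _ (hE.le hu)) with t | t | t
  exacts [absurd t (f.conj g).nt, absurd ((show g * z * g⁻¹ = z by
    rw [mem_cent1_iff.1 (cz hg), mul_inv_cancel_right]).trans t.symm) (f.conj g).ne, t]

omit hI hG in
/-- **Alperin**: the Sylow 2-subgroups of simple groups of 2-rank two. -/
theorem alperin [IsSimpleGroup G] (hc : ¬ IsMulCommutative G) : Good S := by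
  have odd : ¬ PiGrp {2}ᶜ (⊤ : Subgroup G) := fun t => hc ⟨⟨IsSimpleGroup.comm_iff_isSolvable.2 (feit_thompson (by
    rw [← Nat.not_even_iff_odd, even_iff_two_dvd, ← card_top]
    exact fun d => t 2 Nat.prime_two d rfl))⟩⟩
  refine good_sylow h2 (fun t h1 h => h1 ?_) (fun χ h h1 => ?_) hS fun e => odd (hS.eq_bot_iff.1 e)
  · have := h.mem_center (by
      exact (piCoreOf_compl_singleton_top Nat.prime_two).symm.trans
        ((normal_piCoreOf_top _).eq_bot_or_eq_top.resolve_right fun e => odd (e ▸ piCoreOf_piGrp _ _)))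
    rwa [(inferInstance : (center G).Normal).eq_bot_or_eq_top.resolve_right fun e =>
      hc ⟨⟨fun a b => (mem_center_iff.1 (e ▸ mem_top b) a)⟩⟩, mem_bot] at this
  · obtain ⟨l, rfl⟩ := h.isChar.exists_lin h1
    have := commutator_le_cfker_lin l
    rw [(inferInstance : (commutator G).Normal).eq_bot_or_eq_top.resolve_left fun e =>
      hc ⟨⟨fun a b => commutatorElement_eq_one_iff_mul_comm.1 (mem_bot.1 (e ▸ commutator_mem_commutator
        (mem_top a) (mem_top b)))⟩⟩, cfker_lin, top_le_iff, MonoidHom.ker_eq_top_iff] at this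
    rw [this, lin_one]

end CA.Alp
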